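import Cfsg.Agent.BrauerPairs.Nilpotent
import Cfsg.Agent.BlkChar.BlockAlgebra
import Cfsg.Agent.BlockVal.SquareSum

/-!
# Blocks of smallest dimension

If the dimension of the block algebra is `|S| ^ 2 / |D|` for a Sylow subgroup `S`, then it has a
basis permuted transitively by `S × S`, so fusion in the block happens inside `S` and the block is
nilpotent.
-/

set_option maxHeartbeats 400000
set_option linter.unusedSectionVars false
set_option linter.style.haveILetI false

namespace Cfsg.Agent.BrauerPairs.MinBlock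

open MonoidAlgebra Cfsg
open scoped Classical

universe u

section Fun

variable {k : Type*} [Field k] {p : ℕ} [Fact p.Prime] [CharP k p] {S X : Type*} [Group S]
  [Finite S] [MulAction S X]

/-- A non-zero stable space of functions contains a non-zero invariant one. -/
theorem exists_invariant_fun (hS : IsPGroup p S) (K : Submodule k (X → k))
    (hK : ∀ c ∈ K, ∀ s : S, (fun x => c (s • x)) ∈ K) {v : X → k} (hv : v ∈ K) (hv0 : v ≠ 0) :
    ∃ c ∈ K, c ≠ 0 ∧ ∀ (s : S) (x : X), c (s • x) = c x := by
  haveI := Fintype.ofFinite S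
  let φ : (S → ZMod p) →+ (X → k) :=
    { toFun := fun a x => ∑ s : S, ZMod.castHom (dvd_refl p) k (a s) * v (s • x)
      map_zero' := by funext x; simp
      map_add' := fun a b => by
        funext x; simp only [Pi.add_apply, map_add, add_mul, Finset.sum_add_distrib] }
  have hmem : ∀ f ∈ φ.range, f ∈ K := by
    rintro _ ⟨a, rfl⟩
    have : φ a = ∑ s : S, ZMod.castHom (dvd_refl p) k (a s) • fun x => v (s • x) := by
      funext x; simp [φ, Finset.sum_apply]
    rw [this]
    exact K.sum_mem fun s _ => K.smul_mem _ (hK v hv s)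
  have hstab : ∀ f ∈ φ.range, ∀ t : S, (fun x => f (t • x)) ∈ φ.range := by
    rintro _ ⟨a, rfl⟩ t
    refine ⟨fun s => a (s * t⁻¹), funext fun x => ?_⟩
    show ∑ s : S, ZMod.castHom (dvd_refl p) k (a (s * t⁻¹)) * v (s • x) =
      ∑ s : S, ZMod.castHom (dvd_refl p) k (a s) * v (s • t • x)
    refine Fintype.sum_equiv (Equiv.mulRight t⁻¹) _ _ fun s => ?_
    rw [← mul_smul, Equiv.coe_mulRight, mul_assoc, inv_mul_cancel, mul_one]
  letI : MulAction S φ.range :=
    { smul := fun t f => ⟨fun x => (f : X → k) (t⁻¹ • x), hstab f f.2 t⁻¹⟩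
      one_smul := fun f => Subtype.ext <| funext fun x => by
        show (f : X → k) ((1 : S)⁻¹ • x) = _
        rw [inv_one, one_smul]
      mul_smul := fun a b f => Subtype.ext <| funext fun x => by
        show (f : X → k) ((a * b)⁻¹ • x) = (f : X → k) (b⁻¹ • a⁻¹ • x)
        rw [mul_inv_rev, mul_smul] }
  haveI : Finite φ.range := Finite.of_surjective φ.rangeRestrict φ.rangeRestrict_surjective
  have hv' : v ∈ φ.range := by
    refine ⟨Pi.single 1 1, funext fun x => ?_⟩
    show ∑ s : S, ZMod.castHom (dvd_refl p) k ((Pi.single 1 1 : S → ZMod p) s) * v (s • x) = v x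
    rw [Finset.sum_eq_single 1]
    · simp
    · intro s _ hs
      simp [Pi.single_eq_of_ne hs]
    · simp
  have hcard : Nat.card φ.range ∣ p ^ Nat.card S := by
    have := AddSubgroup.card_dvd_of_surjective φ.rangeRestrict φ.rangeRestrict_surjective
    rwa [Nat.card_fun, Nat.card_zmod] at this
  obtain ⟨m, -, hm⟩ := (Nat.dvd_prime_pow (Fact.out : p.Prime)).1 hcard
  haveI : Nontrivial φ.range := ⟨⟨⟨v, hv'⟩, 0, fun h => hv0 (congrArg Subtype.val h)⟩⟩
  have hm0 : m ≠ 0 := by
    rintro rfl
    rw [pow_zero] at hm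
    exact (Finite.one_lt_card (α := φ.range)).ne' hm
  have h0 : (0 : φ.range) ∈ MulAction.fixedPoints S φ.range := fun t => rfl
  obtain ⟨f, hf, hne⟩ := hS.exists_fixed_point_of_prime_dvd_card_of_fixed_point φ.range
    (hm ▸ dvd_pow_self p hm0) h0
  refine ⟨f, hmem f f.2, fun h => hne (Subtype.ext h.symm), fun s x => ?_⟩
  have h1 : (f : X → k) (s⁻¹⁻¹ • x) = (f : X → k) x :=
    congrFun (congrArg Subtype.val (hf s⁻¹)) x
  rwa [inv_inv] at h1

/-- An equivariant map out of a transitive permutation module is injective unless it kills the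
constant function. -/
theorem injective_of_transitive (hS : IsPGroup p S) (htr : ∀ x y : X, ∃ s : S, s • x = y)
    {V : Type*} [AddCommGroup V] [Module k V] (L : (X → k) →ₗ[k] V)
    (hL : ∀ c, L c = 0 → ∀ s : S, L (fun x => c (s • x)) = 0) (h1 : L 1 ≠ 0) :
    Function.Injective L := by
  rw [← LinearMap.ker_eq_bot]
  by_contra hne
  obtain ⟨v, hv, hv0⟩ := (Submodule.ne_bot_iff _).1 hne
  obtain ⟨c, hc, hc0, hinv⟩ := exists_invariant_fun hS (LinearMap.ker L)
    (fun c hc s => hL c hc s) hv hv0
  obtain ⟨x₀, hx₀⟩ := Function.ne_iff.1 hc0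
  have hconst : c = c x₀ • (1 : X → k) := funext fun x => by
    obtain ⟨s, rfl⟩ := htr x₀ x
    rw [hinv]
    simp
  rw [LinearMap.mem_ker, hconst, map_smul, smul_eq_zero] at hc
  exact hc.elim hx₀ h1

end Fun

variable {p : ℕ} [Fact p.Prime] {M : Ideal AlgInt} [M.IsPrime] [CharP (Block.ResF M) p]
  {G : Type u} [Group G] [Fintype G]

/-- A block idempotent is not killed by the sum of the elements of a `p`-subgroup. -/
theorem sum_single_mul_ne_zero {S : Subgroup G} (hS : IsPGroup p S)
    {b : MonoidAlgebra (Block.ResF M) G} (hb : b ≠ 0) (hbb : b * b = b)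
    (hcomm : ∀ a, a * b = b * a) :
    (∑ s : S, single (s : G) (1 : Block.ResF M)) * b ≠ 0 := by
  intro h0
  let K : Submodule (Block.ResF M) (G → Block.ResF M) :=
    { carrier := {f | ∀ a : MonoidAlgebra (Block.ResF M) G, (∀ g, a.coeff g = f g) → a * b = a}
      zero_mem' := fun a ha => by
        rw [show a = 0 from Block.groupAlgebra_ext fun g => by simpa using ha g, zero_mul]
      add_mem' := fun {f f'} hf hf' a ha => by
        let a₁ : MonoidAlgebra (Block.ResF M) G := ∑ g : G, single g (f g)
        let a₂ : MonoidAlgebra (Block.ResF M) G := ∑ g : G, single g (f' g)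
        have e : ∀ (e : G → Block.ResF M) (g : G),
            (∑ x : G, single x (e x) : MonoidAlgebra (Block.ResF M) G).coeff g = e g := by
          intro e g
          rw [coeff_sum, Finsupp.finsetSum_apply, Finset.sum_eq_single g]
          · rw [coeff_single, Finsupp.single_eq_same]
          · intro x _ hx; rw [coeff_single, Finsupp.single_eq_of_ne hx.symm]
          · simp
        rw [show a = a₁ + a₂ from Block.groupAlgebra_ext fun g => by
          rw [ha, coeff_add, Finsupp.add_apply, e, e]; rfl, add_mul, hf a₁ (e f), hf' a₂ (e f')]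
      smul_mem' := fun r f hf a ha => by
        let a₁ : MonoidAlgebra (Block.ResF M) G := ∑ g : G, single g (f g)
        have e : ∀ g : G, a₁.coeff g = f g := by
          intro g
          rw [coeff_sum, Finsupp.finsetSum_apply, Finset.sum_eq_single g]
          · rw [coeff_single, Finsupp.single_eq_same]
          · intro x _ hx; rw [coeff_single, Finsupp.single_eq_of_ne hx.symm]
          · simp
        rw [show a = r • a₁ from Block.groupAlgebra_ext fun g => by
          rw [ha, coeff_smul, Finsupp.smul_apply, e]; rfl, smul_mul_assoc, hf a₁ e] }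
  letI : MulAction S G :=
    { smul := fun s g => (s : G) * g
      one_smul := fun g => by show ((1 : S) : G) * g = g; simp
      mul_smul := fun s t g => by
        show ((s * t : S) : G) * g = (s : G) * ((t : G) * g)
        simp [mul_assoc] }
  have hsm : ∀ (s : S) (g : G), s • g = (s : G) * g := fun _ _ => rfl
  have hstab : ∀ c ∈ K, ∀ s : S, (fun x => c (s • x)) ∈ K := by
    intro c hc s a ha
    have h2 := hc (single (s : G) 1 * a) fun g => by
      rw [Block.coeff_mul_sum, Finset.sum_eq_single (s : G)]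
      · rw [coeff_single, Finsupp.single_eq_same, one_mul, ha]
        show c ((s : G) * ((s : G)⁻¹ * g)) = _
        rw [mul_inv_cancel_left]
      · intro x _ hx; rw [coeff_single, Finsupp.single_eq_of_ne hx, zero_mul]
      · simp
    rw [mul_assoc] at h2
    have h3 := congrArg (fun z => single (s : G)⁻¹ (1 : Block.ResF M) * z) h2
    simpa [← mul_assoc, single_mul_single, ← one_def] using h3
  have hbK : (fun g => b.coeff g) ∈ K := fun a ha => by
    rw [Block.groupAlgebra_ext ha, hbb]
  obtain ⟨c, hc, hc0, hinv⟩ := exists_invariant_fun (k := Block.ResF M) (p := p) hS K hstab hbK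
    (fun h => hb (Block.groupAlgebra_ext fun g => by simpa using congrFun h g))
  let z : MonoidAlgebra (Block.ResF M) G := ∑ g : G, single g (c g)
  have hz : ∀ g, z.coeff g = c g := by
    intro g
    rw [coeff_sum, Finsupp.finsetSum_apply, Finset.sum_eq_single g]
    · rw [coeff_single, Finsupp.single_eq_same]
    · intro x _ hx; rw [coeff_single, Finsupp.single_eq_of_ne hx.symm]
    · simp
  -- an invariant element is a multiple of the sum of `S`
  have hfac : ∃ y, z = (∑ s : S, single (s : G) (1 : Block.ResF M)) * y := by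
    let rep : G → G := fun g => Quotient.out (Quotient.mk (MulAction.orbitRel S G) g)
    refine ⟨∑ g ∈ Finset.univ.filter (fun g => rep g = g), single g (c g),
      Block.groupAlgebra_ext fun g => ?_⟩
    rw [hz, Finset.sum_mul, coeff_sum, Finsupp.finsetSum_apply]
    simp only [Finset.mul_sum, coeff_sum, Finsupp.finsetSum_apply, single_mul_single, one_mul,
      coeff_single]
    have hrep : ∃ s₀ : S, (s₀ : G) * rep g = g := by
      obtain ⟨s, hs⟩ := Quotient.exact
        (Quotient.out_eq (Quotient.mk (MulAction.orbitRel S G) g))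
      refine ⟨s⁻¹, ?_⟩
      show (s⁻¹ : S) • rep g = g
      exact inv_smul_eq_iff.2 hs.symm
    have hrr : rep (rep g) = rep g := by
      simp only [rep, Quotient.out_eq]
    obtain ⟨s₀, hs₀⟩ := hrep
    rw [Finset.sum_eq_single s₀, Finset.sum_eq_single (rep g)]
    · rw [hs₀, Finsupp.single_eq_same, ← hinv s₀ (rep g), hsm, hs₀]
    · intro y hy hne
      rw [Finsupp.single_eq_of_ne]
      intro he
      exact hne (mul_left_cancel (he.symm.trans hs₀.symm))
    · intro hn
      exact absurd ((Finset.mem_filter (p := fun g => rep g = g)).2 ⟨Finset.mem_univ _, hrr⟩) hn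
    · intro s _ hne
      refine Finset.sum_eq_zero fun y hy => ?_
      rw [Finsupp.single_eq_of_ne]
      intro he
      apply hne
      have h5 : rep g = y := by
        rw [← (Finset.mem_filter.1 hy).2]
        simp only [rep]
        exact congrArg Quotient.out (Quotient.sound ⟨s, he.symm⟩)
      rw [← h5] at he
      exact Subtype.ext (mul_right_cancel (he.symm.trans hs₀.symm))
    · simp
  obtain ⟨y, hy⟩ := hfac
  have hzb : z * b = z := hc z hz
  refine hc0 (funext fun g => ?_)
  have : z = 0 := by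
    rw [← hzb, hy, mul_assoc, hcomm y, ← mul_assoc, h0, zero_mul]
  rw [← hz, this]
  simp

/-- In a block of smallest dimension, fusion happens inside a Sylow subgroup. -/
theorem exists_mem_sylow_conj (hM : IsPModular p M) (B : Blk M G) {D : Subgroup G}
    (hD : IsDef (blockSysTop M) p B D) (S : Sylow p G)
    (hmin : (∑ χ ∈ Finset.univ.filter (· ∈ B.1), charDegree ((χ : IrrCharacter G) : G → ℂ) ^ 2) *
      Nat.card D = Nat.card S * Nat.card S)
    {Q : Subgroup G} (hQS : Q ≤ S) (hQne : trunc Q ((blockSysTop M).idem B) ≠ 0) {x : G}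
    (hx : ∀ q ∈ Q, x * q * x⁻¹ ∈ S) : ∃ z ∈ S, ∀ q ∈ Q, x * q * x⁻¹ = z * q * z⁻¹ := by
  haveI : Fact p.Prime := ⟨hM.1⟩
  set b := (blockSysTop M).idem B with hb
  have hbF : b = Block.idemF M B.1 := rfl
  have hbc : ∀ a, a * b = b * a := fun a => by
    rw [hbF, Block.isCentralElt_commute (Block.idemF_isCentralElt B.1) a]
  have hbb : b * b = b := (blockSysTop M).idem_mul_self B
  have hbfix : Fixed ⊤ b := ((blockSysTop M).central_idem B).fixed
  have hb0 : b ≠ 0 := fun h => hQne (by rw [h, map_zero])
  have hS : IsPGroup p (↑S : Subgroup G) := S.isPGroup'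
  letI : MulAction (↑S : Subgroup G) G :=
    MulAction.compHom G ((MulAut.conj (G := G)).comp (↑S : Subgroup G).subtype)
  have hconj : ∀ (s : (↑S : Subgroup G)) (g : G), s • g = (s : G) * g * (s : G)⁻¹ := fun _ _ => rfl
  -- some orbit
  let E : G → MonoidAlgebra (Block.ResF M) G := fun g =>
    (∑ s : (↑S : Subgroup G), single (s : G) 1) *
      (∑ o : MulAction.orbit (↑S : Subgroup G) g, single (o : G) 1) * b
  have horb : ∃ g, b.coeff g ≠ 0 ∧ E g ≠ 0 := by
    by_contra hcon
    push Not at hcon
    refine sum_single_mul_ne_zero hS hb0 hbb hbc ?_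
    have hsum : b = ∑ g : G, single g (b.coeff g) := by
      refine Block.groupAlgebra_ext fun g => ?_
      rw [coeff_sum, Finsupp.finsetSum_apply, Finset.sum_eq_single g]
      · rw [coeff_single, Finsupp.single_eq_same]
      · intro y _ hy; rw [coeff_single, Finsupp.single_eq_of_ne hy.symm]
      · simp
    conv_lhs => rw [← hbb]
    rw [← mul_assoc]
    conv_lhs => arg 1; arg 2; rw [hsum]
    rw [← Finset.sum_fiberwise Finset.univ
      (fun g : G => Quotient.mk (MulAction.orbitRel (↑S : Subgroup G) G) g), Finset.mul_sum,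
      Finset.sum_mul]
    refine Finset.sum_eq_zero fun o _ => ?_
    obtain ⟨g₀, rfl⟩ := Quotient.exists_rep o
    have hfib : ∑ g ∈ Finset.univ.filter (fun g : G =>
          Quotient.mk (MulAction.orbitRel (↑S : Subgroup G) G) g =
            Quotient.mk (MulAction.orbitRel (↑S : Subgroup G) G) g₀), single g (b.coeff g) =
        b.coeff g₀ • ∑ o : MulAction.orbit (↑S : Subgroup G) g₀,
          (single (o : G) 1 : MonoidAlgebra (Block.ResF M) G) := by
      rw [Finset.smul_sum]
      refine Finset.sum_bij' (fun g hg => (⟨g, ?_⟩ : MulAction.orbit (↑S : Subgroup G) g₀))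
        (fun o _ => (o : G)) (fun _ _ => Finset.mem_univ _) (fun o _ => ?_) (fun _ _ => rfl)
        (fun _ _ => rfl) (fun g hg => ?_)
      · exact Quotient.exact (Finset.mem_filter.1 hg).2
      · exact Finset.mem_filter.2 ⟨Finset.mem_univ _, Quotient.sound o.2⟩
      · have hmem : g ∈ MulAction.orbit (↑S : Subgroup G) g₀ :=
          Quotient.exact (Finset.mem_filter.1 hg).2
        obtain ⟨s, rfl⟩ := hmem
        show single (s • g₀) (b.coeff (s • g₀)) = b.coeff g₀ • single (s • g₀) 1
        rw [hconj, hbfix _ trivial, smul_single, smul_eq_mul, mul_one]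
    rw [hfib, mul_smul_comm, smul_mul_assoc]
    rcases eq_or_ne (b.coeff g₀) 0 with h | h
    · rw [h, zero_smul]
    · show b.coeff g₀ • E g₀ = 0
      rw [hcon g₀ h, smul_zero]
  obtain ⟨g, hg, hE⟩ := horb
  -- the permutation module
  set Or := MulAction.orbit (↑S : Subgroup G) g
  letI : MulAction ((↑S : Subgroup G) × (↑S : Subgroup G)) ((↑S : Subgroup G) × Or) :=
    { smul := fun a y => (a.1 * y.1 * a.2⁻¹, a.2 • y.2)
      one_smul := fun y => by
        show ((1 : (↑S : Subgroup G)) * y.1 * (1 : (↑S : Subgroup G))⁻¹,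
          (1 : (↑S : Subgroup G)) • y.2) = y
        rw [one_mul, inv_one, mul_one, one_smul]
      mul_smul := fun a c y => by
        show (a.1 * c.1 * y.1 * (a.2 * c.2)⁻¹, (a.2 * c.2) • y.2) =
          (a.1 * (c.1 * y.1 * c.2⁻¹) * a.2⁻¹, a.2 • c.2 • y.2)
        rw [mul_smul]
        congr 1
        group }
  have hsm : ∀ (a : (↑S : Subgroup G) × (↑S : Subgroup G)) (y : (↑S : Subgroup G) × Or),
      a • y = (a.1 * y.1 * a.2⁻¹, a.2 • y.2) := fun _ _ => rfl
  let e : (↑S : Subgroup G) × Or → MonoidAlgebra (Block.ResF M) G := fun y =>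
    single ((y.1 : G) * (y.2 : G)) 1 * b
  let L : ((↑S : Subgroup G) × Or → Block.ResF M) →ₗ[Block.ResF M]
      MonoidAlgebra (Block.ResF M) G :=
    { toFun := fun c => ∑ y, c y • e y
      map_add' := fun c c' => by simp only [Pi.add_apply, add_smul, Finset.sum_add_distrib]
      map_smul' := fun r c => by
        simp only [Pi.smul_apply, smul_eq_mul, mul_smul, RingHom.id_apply, Finset.smul_sum] }
  have hshift : ∀ (a : (↑S : Subgroup G) × (↑S : Subgroup G)) (c : _ → Block.ResF M),
      L (fun y => c (a • y)) = single ((a.1 : G)⁻¹) 1 * L c * single (a.2 : G) 1 := by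
    intro a c
    show ∑ y, c (a • y) • e y = _ * (∑ y, c y • e y) * _
    rw [Finset.mul_sum, Finset.sum_mul]
    refine Fintype.sum_equiv (MulAction.toPerm a) _ _ fun y => ?_
    rw [MulAction.toPerm_apply, mul_smul_comm, smul_mul_assoc]
    congr 1
    show single ((y.1 : G) * (y.2 : G)) 1 * b =
      single ((a.1 : G)⁻¹) 1 * (single (((a • y).1 : G) * ((a • y).2 : G)) 1 * b) *
        single (a.2 : G) 1
    rw [mul_assoc, mul_assoc, ← hbc, ← mul_assoc, ← mul_assoc, single_mul_single, single_mul_single,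
      one_mul, one_mul, hsm]
    congr 2
    show _ = (a.1 : G)⁻¹ * ((a.1 : G) * (y.1 : G) * (a.2 : G)⁻¹ * ((a.2 : G) * (y.2 : G) * (a.2 : G)⁻¹)) *
      (a.2 : G)
    group
  have hinj : Function.Injective L := by
    obtain ⟨n, hn⟩ := IsPGroup.iff_card.1 hS
    refine injective_of_transitive (p := p)
      (IsPGroup.of_card (n := n + n) (by rw [Nat.card_prod, hn, pow_add])) (fun y y' => ?_) L
      (fun c hc a => by rw [hshift, hc, mul_zero, zero_mul]) ?_
    · obtain ⟨t, ht⟩ := MulAction.exists_smul_eq (↑S : Subgroup G) y.2 y'.2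
      refine ⟨(y'.1 * t * y.1⁻¹, t), Prod.ext ?_ ht⟩
      show y'.1 * t * y.1⁻¹ * y.1 * t⁻¹ = y'.1
      group
    · intro h
      apply hE
      rw [← h]
      show _ = ∑ y, (1 : Block.ResF M) • e y
      simp only [one_smul, e, E, ← Finset.sum_mul]
      rw [Finset.sum_mul_sum, Fintype.sum_prod_type]
      simp only [single_mul_single, one_mul]
      congr!
  -- counting
  have hcount : Module.finrank (Block.ResF M) (LinearMap.range L) =
      Nat.card (↑S : Subgroup G) * Nat.card Or := by
    rw [LinearMap.finrank_range_of_inj hinj, Module.finrank_fintype_fun_eq_card,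
      Fintype.card_prod, Nat.card_eq_fintype_card, Nat.card_eq_fintype_card]
  let toFun : MonoidAlgebra (Block.ResF M) G →ₗ[Block.ResF M] (G → Block.ResF M) :=
    { toFun := fun a g => a.coeff g
      map_add' := fun a a' => funext fun g => by simp
      map_smul' := fun r a => funext fun g => by simp }
  have htoFun : Function.Injective toFun := fun a a' h =>
    Block.groupAlgebra_ext fun g => congrFun h g
  set V := LinearMap.range (BlkChar.BlockAlg.mulMat (Block.idemF M B.1)).mulVecLin
  have hinV : ∀ a, a * b = a → toFun a ∈ V := fun a ha => by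
    refine ⟨toFun a, ?_⟩
    rw [Matrix.mulVecLin_apply]
    show (BlkChar.BlockAlg.mulMat _).mulVec (fun g => a.coeff g) = _
    rw [BlkChar.BlockAlg.mulMat_mulVec, ← hbF, ← hbc, ha]
    rfl
  have hdimV : Module.finrank (Block.ResF M) V =
      ∑ χ ∈ Finset.univ.filter (· ∈ B.1), charDegree ((χ : IrrCharacter G) : G → ℂ) ^ 2 := by
    have h := BlkChar.BlockAlg.finrank_range_mulMat (M := M) B.2
    apply Nat.cast_injective (R := ℂ)
    rw [h]
    push_cast
    exact Finset.sum_congr rfl fun χ _ => by rw [(BlockVal.irr_one_eq_charDegree χ).1]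
  have hle : LinearMap.range (toFun.comp L) ≤ V := by
    rintro _ ⟨c, rfl⟩
    refine hinV _ ?_
    show (∑ y, c y • e y) * b = ∑ y, c y • e y
    rw [Finset.sum_mul]
    exact Finset.sum_congr rfl fun y _ => by
      show (c y • (single _ 1 * b)) * b = _
      rw [smul_mul_assoc, mul_assoc, hbb]
  have hcount' : Module.finrank (Block.ResF M) (LinearMap.range (toFun.comp L)) =
      Nat.card (↑S : Subgroup G) * Nat.card Or := by
    rw [LinearMap.finrank_range_of_inj (f := toFun.comp L) (htoFun.comp hinj),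
      Module.finrank_fintype_fun_eq_card,
      Fintype.card_prod, Nat.card_eq_fintype_card, Nat.card_eq_fintype_card]
  -- the stabilizer is no larger than a defect group
  have hstabD : Nat.card (MulAction.stabilizer (↑S : Subgroup G) g) ≤ Nat.card D := by
    set R := (MulAction.stabilizer (↑S : Subgroup G) g).map (↑S : Subgroup G).subtype with hR
    have hRp : IsPGroup p R := (hS.to_subgroup _).map _
    have hgR : g ∈ Subgroup.centralizer (R : Set G) := by
      rw [Subgroup.mem_centralizer_iff]
      rintro _ ⟨r, hr, rfl⟩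
      have h1 : (r : G) * g * (r : G)⁻¹ = g := MulAction.mem_stabilizer_iff.1 hr
      exact mul_inv_eq_iff_eq_mul.1 h1
    obtain ⟨y, hy⟩ := hD.2.1.eq_zero_of_le_centralizer hRp hgR hg
    have := Subgroup.card_le_of_le hy
    rwa [hR, Subgroup.card_map_of_injective Subtype.val_injective,
      Subgroup.card_map_of_injective (MulAut.conj y).injective] at this
  have hOr : Nat.card Or * Nat.card (MulAction.stabilizer (↑S : Subgroup G) g) =
      Nat.card (↑S : Subgroup G) := by
    rw [← Nat.card_prod, Nat.card_congr (MulAction.orbitProdStabilizerEquivGroup (↑S : Subgroup G) g)]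
  have hge : Module.finrank (Block.ResF M) V ≤ Nat.card (↑S : Subgroup G) * Nat.card Or := by
    rw [hdimV]
    refine Nat.le_of_mul_le_mul_right ?_ (Nat.card_pos (α := D))
    rw [hmin]
    conv_lhs => arg 2; rw [← hOr]
    rw [← mul_assoc]
    exact Nat.mul_le_mul le_rfl hstabD
  have hV : LinearMap.range (toFun.comp L) = V :=
    Submodule.eq_of_le_of_finrank_le hle (hcount'.symm ▸ hge)
  -- the element `x b`
  obtain ⟨c, hc⟩ : ∃ c, L c = single x 1 * b := by
    have hmem := hinV (single x 1 * b) (by rw [mul_assoc, hbb])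
    rw [← hV] at hmem
    obtain ⟨c, hc⟩ := hmem
    exact ⟨c, htoFun hc⟩
  let act : Q →* (↑S : Subgroup G) × (↑S : Subgroup G) :=
    { toFun := fun q => (⟨x * (q : G) * x⁻¹, hx q q.2⟩, ⟨(q : G), hQS q.2⟩)
      map_one' := Prod.ext (Subtype.ext (by simp)) (Subtype.ext (by simp))
      map_mul' := fun q r => Prod.ext (Subtype.ext (by simp [mul_assoc])) (Subtype.ext (by simp)) }
  have hcinv : ∀ (q : Q) y, c (act q • y) = c y := by
    intro q
    have h := hshift (act q) c
    rw [hc] at h
    have h2 : L (fun y => c (act q • y)) = L c := by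
      rw [h, hc, ← mul_assoc, single_mul_single, mul_assoc, ← hbc, ← mul_assoc, single_mul_single,
        one_mul, one_mul]
      congr 2
      show (x * (q : G) * x⁻¹)⁻¹ * x * (q : G) = x
      group
    exact fun y => congrFun (hinj h2) y
  obtain ⟨c₀, hc₀, hc₀ne⟩ : ∃ c₀, c₀ ∈ Subgroup.centralizer (Q : Set G) ∧ b.coeff c₀ ≠ 0 := by
    by_contra hcon
    push Not at hcon
    refine hQne (Block.groupAlgebra_ext fun y => ?_)
    by_cases hy : y ∈ Subgroup.centralizer (Q : Set G)
    · rw [coeff_trunc_mem _ hy]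
      exact (hcon y hy).trans (by simp)
    · rw [coeff_trunc_notMem _ hy]
      simp
  letI : MulAction Q ((↑S : Subgroup G) × Or) := MulAction.compHom _ act
  have hQp : IsPGroup p Q := hS.to_le hQS
  have hval : ∑ y, c y * (e y).coeff (x * c₀) = b.coeff c₀ := by
    have h1 : (L c).coeff (x * c₀) = ∑ y, c y * (e y).coeff (x * c₀) := by
      show (∑ y, c y • e y).coeff (x * c₀) = _
      simp [coeff_sum, Finsupp.finsetSum_apply]
    rw [← h1, hc, Block.coeff_mul_sum, Finset.sum_eq_single x]
    · rw [coeff_single, Finsupp.single_eq_same, one_mul, inv_mul_cancel_left]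
    · intro y _ hy; rw [coeff_single, Finsupp.single_eq_of_ne hy, zero_mul]
    · simp
  have hinvf : ∀ (q : Q) (y : (↑S : Subgroup G) × Or),
      c (q • y) * (e (q • y)).coeff (x * c₀) = c y * (e y).coeff (x * c₀) := by
    intro q y
    rw [show c (q • y) = c y from hcinv q y]
    congr 1
    show (single (((act q • y).1 : G) * ((act q • y).2 : G)) 1 * b).coeff (x * c₀) =
      (single ((y.1 : G) * (y.2 : G)) 1 * b).coeff (x * c₀)
    have e1 : ∀ h z : G, (single h (1 : Block.ResF M) * b).coeff z = b.coeff (h⁻¹ * z) := by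
      intro h z
      rw [Block.coeff_mul_sum, Finset.sum_eq_single h]
      · rw [coeff_single, Finsupp.single_eq_same, one_mul]
      · intro w _ hw; rw [coeff_single, Finsupp.single_eq_of_ne hw, zero_mul]
      · simp
    rw [e1, e1, hsm]
    show b.coeff ((x * (q : G) * x⁻¹ * (y.1 : G) * (q : G)⁻¹ *
      ((q : G) * (y.2 : G) * (q : G)⁻¹))⁻¹ * (x * c₀)) = _
    conv_rhs => rw [← hbfix (q : G) trivial ((((y.1 : G) * (y.2 : G))⁻¹ * (x * c₀)))]
    congr 1
    have hcq : (q : G) * c₀ = c₀ * (q : G) := Subgroup.mem_centralizer_iff.1 hc₀ q q.2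
    calc (x * (q : G) * x⁻¹ * (y.1 : G) * (q : G)⁻¹ *
          ((q : G) * (y.2 : G) * (q : G)⁻¹))⁻¹ * (x * c₀)
        = (q : G) * ((y.1 : G) * (y.2 : G))⁻¹ * x * ((q : G)⁻¹ * c₀) := by group
      _ = (q : G) * ((y.1 : G) * (y.2 : G))⁻¹ * x * (c₀ * (q : G)⁻¹) := by
          congr 1
          rw [inv_mul_eq_iff_eq_mul, ← mul_assoc, hcq, mul_inv_cancel_right]
      _ = _ := by group
  have hfix := sum_eq_sum_fixedPoints (p := p) (P := Q) (fun m : Block.ResF M => by simp) hQp
    (fun y => c y * (e y).coeff (x * c₀)) hinvf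
  rw [hval] at hfix
  obtain ⟨y, hy, -⟩ := Finset.exists_ne_zero_of_sum_ne_zero (hfix ▸ hc₀ne)
  refine ⟨(y.1 : G), y.1.2, fun q hq => ?_⟩
  have h1 := congrArg (fun z : (↑S : Subgroup G) × Or => (z.1 : G))
    ((Finset.mem_filter.1 hy).2 (⟨q, hq⟩ : Q))
  have h2 : x * q * x⁻¹ * (y.1 : G) * q⁻¹ = (y.1 : G) := h1
  calc x * q * x⁻¹ = (x * q * x⁻¹ * (y.1 : G) * q⁻¹) * q * (y.1 : G)⁻¹ := by group
    _ = _ := by rw [h2]

/-- A block of smallest dimension is nilpotent. -/
theorem isNilpotentBlock_of_minimal (hM : IsPModular p M) (B : Blk M G) {D : Subgroup G}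
    (hD : IsDef (blockSysTop M) p B D)
    (hmin : ∀ S : Sylow p G,
      (∑ χ ∈ Finset.univ.filter (· ∈ B.1), charDegree ((χ : IrrCharacter G) : G → ℂ) ^ 2) *
        Nat.card D = Nat.card S * Nat.card S) :
    IsNilpotentBlock p M B.1 := by
  rw [isNilpotentBlock_iff]
  intro a ha x hx hreg
  obtain ⟨S, hS⟩ := ha.1.exists_le_sylow
  have hxN : x ∈ Subgroup.normalizer (a.1 : Set G) := hx.1
  obtain ⟨z, hz, hzq⟩ := exists_mem_sylow_conj hM B hD S (hmin S) hS ha.trunc_ne_zero
    (x := x) fun q hq => hS ((Subgroup.mem_normalizer_iff.1 hxN q).1 hq)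
  have hiter : ∀ (m : ℕ), ∀ q ∈ a.1, x ^ m * q * (x ^ m)⁻¹ = z ^ m * q * (z ^ m)⁻¹ := by
    intro m
    induction m with
    | zero => simp
    | succ m ih =>
      intro q hq
      calc x ^ (m + 1) * q * (x ^ (m + 1))⁻¹ = x ^ m * (x * q * x⁻¹) * (x ^ m)⁻¹ := by
            rw [pow_succ]; group
        _ = z ^ m * (x * q * x⁻¹) * (z ^ m)⁻¹ :=
            ih _ ((Subgroup.mem_normalizer_iff.1 hxN q).1 hq)
        _ = z ^ m * (z * q * z⁻¹) * (z ^ m)⁻¹ := by rw [hzq q hq]
        _ = z ^ (m + 1) * q * (z ^ (m + 1))⁻¹ := by rw [pow_succ]; group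
  obtain ⟨n, hn⟩ := (IsPGroup.iff_orderOf.1 S.isPGroup') ⟨z, hz⟩
  rw [Subgroup.orderOf_mk] at hn
  have hmem : x ^ p ^ n ∈ Subgroup.centralizer (a.1 : Set G) := by
    rw [Subgroup.mem_centralizer_iff]
    intro q hq
    have h := hiter (p ^ n) q hq
    rw [← hn, pow_orderOf_eq_one, one_mul, inv_one, mul_one, hn] at h
    exact (mul_inv_eq_iff_eq_mul.1 h).symm
  have hcop : (p ^ n).Coprime (orderOf x) :=
    Nat.Coprime.pow_left n (((Fact.out : p.Prime).coprime_iff_not_dvd).2 hreg)
  obtain ⟨l, hl⟩ := exists_pow_eq_self_of_coprime hcop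
  rw [← hl]
  exact Subgroup.pow_mem _ hmem l

end Cfsg.Agent.BrauerPairs.MinBlock
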