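import Cfsg.Agent.BrauerPairs.BlockSys

/-!
Blocks of a subgroup whose idempotents live in a normal subgroup are orbit sums.
-/

namespace Cfsg.Agent.BrauerPairs

open MonoidAlgebra

variable {G : Type*} [Group G] [Finite G] {k : Type*} [Field k]
  {D H : Subgroup G} {κ κ' : Type*} [Fintype κ] [Fintype κ']
  (T : BlockSys k D κ) (U : BlockSys k H κ')

/-- If the idempotent of a block of `H` lives in the normal subgroup `D`, the blocks of `D` below
it form one orbit under `H`. -/
theorem exists_cj_of_lam_one (hDH : D ≤ H) (hHD : H ≤ Subgroup.normalizer (D : Set G)) {g : κ'}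
    (hsupp : SuppIn D (U.idem g)) {i j : κ} (hi : T.lam i (U.idem g) = 1)
    (hj : T.lam j (U.idem g) = 1) : ∃ h ∈ H, T.idem j = cj h (T.idem i) := by
  classical
  have hgc : CentralIn D (U.idem g) := ⟨hsupp, (U.central_idem g).fixed.mono hDH⟩
  have hg2 := U.idem_mul_self g
  set s := Finset.univ.filter fun l => ∃ h ∈ H, T.idem l = cj h (T.idem i) with hs
  by_contra hcon
  have hjs : j ∉ s := fun h => hcon (Finset.mem_filter.1 h).2
  set o := ∑ l ∈ s, T.idem l with ho
  have hoc : CentralIn D o := CentralIn.sum _ fun l _ => T.central_idem l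
  have hofix : Fixed H o := by
    rw [fixed_iff_cj]
    intro h hh
    choose f hf hfu using fun l =>
      T.exists_idem_eq_cj T h (map_conj_of_mem_normalizer (hHD hh)) l
    rw [ho, map_sum]
    refine Finset.sum_bij (fun l _ => f l) (fun l hl => ?_) (fun a _ b _ hab => ?_) (fun l hl => ?_)
      fun l _ => (hf l).symm
    · obtain ⟨-, h', hh', he⟩ := Finset.mem_filter.1 hl
      exact Finset.mem_filter.2 ⟨Finset.mem_univ _, h * h', H.mul_mem hh hh', by
        rw [hf, he, cj_cj]⟩
    · apply T.idem_injective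
      have := congrArg T.idem hab
      rw [hf, hf] at this
      exact (cj h).injective this
    · obtain ⟨-, h', hh', he⟩ := Finset.mem_filter.1 hl
      obtain ⟨l', hl', -⟩ := T.exists_idem_eq_cj T (h⁻¹ * h')
        (map_conj_of_mem_normalizer (hHD (H.mul_mem (H.inv_mem hh) hh'))) i
      refine ⟨l', Finset.mem_filter.2 ⟨Finset.mem_univ _, _, H.mul_mem (H.inv_mem hh) hh', hl'⟩,
        T.idem_injective ?_⟩
      rw [hf, hl', cj_cj, mul_inv_cancel_left, he]
  have hoH : CentralIn H o := ⟨hoc.supp.mono hDH, hofix⟩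
  have ho2 : o * o = o := by
    rw [ho, Finset.sum_mul_sum]
    refine Finset.sum_congr rfl fun l hl => ?_
    rw [Finset.sum_eq_single_of_mem l hl fun l' _ hne => T.idem_mul_ne l l' hne.symm,
      T.idem_mul_self]
  have hog : o * U.idem g = o := by
    rw [ho, Finset.sum_mul]
    refine Finset.sum_congr rfl fun l hl => ?_
    obtain ⟨-, h', hh', he⟩ := Finset.mem_filter.1 hl
    rw [he]
    conv_lhs => rw [← fixed_iff_cj.1 (U.central_idem g).fixed h' hh']
    rw [← map_mul]
    congr 1
    rw [(CentralIn.commute (T.central_idem i).fixed hsupp).eq]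
    exact T.mul_idem_eq_of_lam_one hgc hg2 hi
  have hlj : T.lam j o = 0 := by
    rw [ho, T.lam_sum j _ fun l _ => T.central_idem l]
    exact Finset.sum_eq_zero fun l hl => T.lam_idem_ne fun h => hjs (h ▸ hl)
  rcases U.eq_zero_or_eq_idem g hoH ho2 hog with h0 | h0
  · have hli : T.lam i o = 1 := by
      rw [ho, T.lam_sum i _ fun l _ => T.central_idem l, Finset.sum_eq_single_of_mem i
        (Finset.mem_filter.2 ⟨Finset.mem_univ _, 1, H.one_mem, (cj_one _).symm⟩)
        fun l _ hne => T.lam_idem_ne hne.symm, T.lam_idem_self]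
    rw [h0, T.lam_zero] at hli
    exact zero_ne_one hli
  · rw [h0, hj] at hlj
    exact one_ne_zero hlj

/-- Every block of `D` lies below some block of `H`. -/
theorem exists_above (hDH : D ≤ H) (hsupp : ∀ g, SuppIn D (U.idem g)) (i : κ) :
    ∃ g, T.lam i (U.idem g) = 1 := by
  by_contra hcon
  push Not at hcon
  have hc : ∀ g, CentralIn D (U.idem g) := fun g => ⟨hsupp g, (U.central_idem g).fixed.mono hDH⟩
  have h1 := T.lam_one i
  rw [← U.sum_idem, T.lam_sum i _ fun g _ => hc g] at h1
  refine one_ne_zero (h1.symm.trans (Finset.sum_eq_zero fun g _ => ?_))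
  rcases T.mul_idem_cases i (hc g) (U.idem_mul_self g) with ⟨h, -⟩ | ⟨h, -⟩
  · exact h
  · exact absurd h (hcon g)

theorem cj_above (hDH : D ≤ H) (hsupp : ∀ g, SuppIn D (U.idem g)) {i : κ} {g : κ'}
    (hi : T.lam i (U.idem g) = 1) {x : G} (hxH : x ∈ Subgroup.normalizer (H : Set G))
    (hx : cj x (T.idem i) = T.idem i) : cj x (U.idem g) = U.idem g := by
  have hc : ∀ g, CentralIn D (U.idem g) := fun g => ⟨hsupp g, (U.central_idem g).fixed.mono hDH⟩
  obtain ⟨g', hg', -⟩ := U.exists_idem_eq_cj U x (map_conj_of_mem_normalizer hxH) g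
  rw [← hg']
  by_cases h : g' = g
  · rw [h]
  exfalso
  have h1 : U.idem g * T.idem i = T.idem i := T.mul_idem_eq_of_lam_one (hc g) (U.idem_mul_self g) hi
  have h2 : U.idem g' * T.idem i = T.idem i := by
    rw [hg']
    conv_lhs => rw [← hx]
    rw [← map_mul, h1, hx]
  refine T.idem_ne_zero i ?_
  rw [← h2]
  conv_lhs => rw [← h1]
  rw [← mul_assoc, U.idem_mul_ne g' g h, zero_mul]

end Cfsg.Agent.BrauerPairs
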