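import Cfsg.Agent.BrauerPairs.Nilpotent
import Cfsg.Agent.BrauerPairs.RegSupport
import Cfsg.Agent.BrauerPairs.OrbitBlocks

/-!
Nilpotency is unchanged by a stable extension of `p`-power index.
-/

namespace Cfsg.Agent.BrauerPairs

open MonoidAlgebra Cfsg

set_option maxHeartbeats 400000

universe u

variable {p : ℕ} {M : Ideal AlgInt} [M.IsPrime] {G : Type u} [Group G] [Finite G] [Fact p.Prime]
  [CharP (Block.ResF M) p]

omit [M.IsPrime] [Fact p.Prime] [CharP (Block.ResF M) p] [Finite G] in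
theorem centralizer_map_subtype_inf {N : Subgroup G} (R' : Subgroup N) :
    (Subgroup.centralizer (R' : Set N)).map N.subtype =
      Subgroup.centralizer ((R'.map N.subtype : Subgroup G) : Set G) ⊓ N := by
  ext g
  constructor
  · rintro ⟨y, hy, rfl⟩
    refine ⟨Subgroup.mem_centralizer_iff.2 ?_, y.2⟩
    rintro _ ⟨r, hr, rfl⟩
    exact congrArg Subtype.val (Subgroup.mem_centralizer_iff.1 hy r hr)
  · rintro ⟨hg, hgN⟩
    refine ⟨⟨g, hgN⟩, Subgroup.mem_centralizer_iff.2 fun r hr => Subtype.ext ?_, rfl⟩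
    exact Subgroup.mem_centralizer_iff.1 hg _ ⟨r, hr, rfl⟩

theorem le_normalizer_inf_normal {N H : Subgroup G} [N.Normal] {x : G}
    (hx : x ∈ Subgroup.normalizer (H : Set G)) :
    x ∈ Subgroup.normalizer ((H ⊓ N : Subgroup G) : Set G) := by
  rw [Subgroup.mem_normalizer_iff] at hx ⊢
  intro z
  refine and_congr (hx z) ⟨fun h => ‹N.Normal›.conj_mem z h x, fun h => ?_⟩
  simpa [mul_assoc] using ‹N.Normal›.conj_mem _ h x⁻¹

/-- A `p`-regular element of `N` stabilizing a block of `C_G(R)` fixes every block of `C_N(R)`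
below it. -/
theorem cj_below_eq (hM : IsPModular p M) {N : Subgroup G} [N.Normal] {k : ℕ}
    (hk : N.index = p ^ k) {R : Subgroup G} {g : Blk M (Subgroup.centralizer (R : Set G))}
    {i : Blk M (Subgroup.centralizer (R : Set G) ⊓ N : Subgroup G)}
    (hi : (blockSys M (Subgroup.centralizer (R : Set G) ⊓ N)).lam i ((pairSys M G R).idem g) = 1)
    {x : G} (hxN : x ∈ N) (hxreg : IsPRegular p x) (hx : x ∈ stab (⟨R, g⟩ : PairIdx M G)) :
    cj x ((blockSys M (Subgroup.centralizer (R : Set G) ⊓ N)).idem i) =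
      (blockSys M (Subgroup.centralizer (R : Set G) ⊓ N)).idem i := by
  have hxH : x ∈ Subgroup.normalizer (Subgroup.centralizer (R : Set G) : Set G) :=
    normalizer_le_normalizer_centralizer R hx.1
  have hxD := le_normalizer_inf_normal (N := N) hxH
  have hsupp : SuppIn (Subgroup.centralizer (R : Set G) ⊓ N) ((pairSys M G R).idem g) :=
    suppIn_idem_inf hM hk g
  have hgc : CentralIn (Subgroup.centralizer (R : Set G) ⊓ N) ((pairSys M G R).idem g) :=
    ⟨hsupp, ((pairSys M G R).central_idem g).fixed.mono inf_le_left⟩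
  have hfixD : ∀ (l : Blk M (Subgroup.centralizer (R : Set G) ⊓ N : Subgroup G)),
      ∀ d ∈ Subgroup.centralizer (R : Set G) ⊓ N,
        cj d ((blockSys M (Subgroup.centralizer (R : Set G) ⊓ N)).idem l) =
          (blockSys M (Subgroup.centralizer (R : Set G) ⊓ N)).idem l := fun l d hd =>
    fixed_iff_cj.1 ((blockSys M _).central_idem l).fixed d hd
  obtain ⟨j, hj, -⟩ := (blockSys M (Subgroup.centralizer (R : Set G) ⊓ N)).exists_idem_eq_cj
    (blockSys M (Subgroup.centralizer (R : Set G) ⊓ N)) x (map_conj_of_mem_normalizer hxD) i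
  have hj1 : (blockSys M (Subgroup.centralizer (R : Set G) ⊓ N)).lam j
      ((pairSys M G R).idem g) = 1 := by
    rw [← hx.2, (blockSys M _).lam_cj (blockSys M _) x (map_conj_of_mem_normalizer hxD) hj hgc, hi]
  obtain ⟨h, hh, hjh⟩ := exists_cj_of_lam_one
    (blockSys M (Subgroup.centralizer (R : Set G) ⊓ N)) (pairSys M G R) inf_le_left
    (fun y hy => le_normalizer_inf_normal (Subgroup.le_normalizer hy)) hsupp hi hj1
  rw [hj] at hjh
  set e := (blockSys M (Subgroup.centralizer (R : Set G) ⊓ N)).idem i with he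
  have key : ∀ n : ℕ, cj (x ^ n) e = cj (h ^ n) e := by
    intro n
    induction n with
    | zero => simp
    | succ n ih =>
      have hhn : h ^ n ∈ Subgroup.centralizer (R : Set G) := pow_mem hh n
      have hd : (h ^ n)⁻¹ * (x * h ^ n * x⁻¹) ∈ Subgroup.centralizer (R : Set G) ⊓ N := by
        refine ⟨Subgroup.mul_mem _ (Subgroup.inv_mem _ hhn) ?_, ?_⟩
        · exact (Subgroup.mem_normalizer_iff.1 hxH _).1 hhn
        · rw [show (h ^ n)⁻¹ * (x * h ^ n * x⁻¹) = ((h ^ n)⁻¹ * x * h ^ n) * x⁻¹ by group]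
          refine N.mul_mem ?_ (N.inv_mem hxN)
          simpa using ‹N.Normal›.conj_mem x hxN (h ^ n)⁻¹
      calc cj (x ^ (n + 1)) e = cj x (cj (x ^ n) e) := by rw [pow_succ', cj_cj]
        _ = cj (x * h ^ n * x⁻¹) (cj x e) := by
          rw [ih, cj_cj, cj_cj]; congr 2; group
        _ = cj (h ^ n) (cj ((h ^ n)⁻¹ * (x * h ^ n * x⁻¹)) (cj x e)) := by
          rw [cj_cj (h ^ n)]; congr 2; group
        _ = cj (h ^ n) (cj x e) := by rw [← hj, hfixD j _ hd]
        _ = cj (h ^ (n + 1)) e := by rw [hjh, cj_cj, ← pow_succ]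
  let S : Subgroup G :=
    { carrier := {y | cj y e = e}
      one_mem' := cj_one e
      mul_mem' := fun {a b} ha hb => by
        show cj (a * b) e = e
        rw [← cj_cj, (hb : cj b e = e), (ha : cj a e = e)]
      inv_mem' := fun {a} ha => by
        show cj a⁻¹ e = e
        conv_lhs => rw [← (ha : cj a e = e)]
        exact cj_inv_cj a e }
  have h1 : h ^ orderOf x ∈ S := by
    show cj _ e = e
    rw [← key, pow_orderOf_eq_one, cj_one]
  have h2 : h ^ p ^ k ∈ S := by
    refine hfixD i _ ⟨pow_mem hh _, ?_⟩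
    rw [← hk]
    exact Subgroup.pow_index_mem N h
  have hcop : (orderOf x).Coprime (p ^ k) :=
    ((Nat.Prime.coprime_iff_not_dvd hM.1).2 hxreg).symm.pow_right k
  have h3 : h ∈ S := by
    have hb := Nat.gcd_eq_gcd_ab (orderOf x) (p ^ k)
    rw [hcop, Nat.cast_one] at hb
    have : h = (h ^ orderOf x) ^ Nat.gcdA (orderOf x) (p ^ k) *
        (h ^ p ^ k) ^ Nat.gcdB (orderOf x) (p ^ k) := by
      rw [← zpow_natCast, ← zpow_natCast, ← zpow_mul, ← zpow_mul, ← zpow_add, ← hb, zpow_one]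
    rw [this]
    exact mul_mem (zpow_mem h1 _) (zpow_mem h2 _)
  rw [hjh]
  exact h3

omit [Fact p.Prime] [CharP (Block.ResF M) p] in
theorem idemTop_eq_of_blockCoeff {N : Subgroup G} {c : Blk M N} {B : Blk M G}
    (h : ∀ g : G, blockCoeff B.1 g = subgroupBlockCoeff N c.1 g) :
    (blockSysTop M).idem B = (blockSys M N).idem c :=
  Block.groupAlgebra_ext fun g => by rw [coeff_blockSysTop_idem, coeff_blockSys_idem, h g]

theorem isNilpotentBlock_of_ext (hM : IsPModular p M) {N : Subgroup G} [N.Normal] {k : ℕ}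
    (hk : N.index = p ^ k) {c : Blk M N} {B : Blk M G}
    (hid : (blockSysTop M).idem B = (blockSys M N).idem c) (hnil : IsNilpotentBlock p M B.1) :
    IsNilpotentBlock p M c.1 := by
  rw [isNilpotentBlock_iff] at hnil ⊢
  rintro ⟨R', i'⟩ ha x hx hreg
  obtain ⟨i, hi⟩ := exists_idem_eq (mapSys (pairSys M N R'))
    (blockSys M (Subgroup.centralizer ((R'.map N.subtype : Subgroup G) : Set G) ⊓ N))
    (centralizer_map_subtype_inf R') i'
  have hidem : (blockSys M (Subgroup.centralizer ((R'.map N.subtype : Subgroup G) : Set G) ⊓ N)).idem i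
      = Block.incl N ((pairSys M N R').idem i') := hi
  obtain ⟨g, hg⟩ := exists_above
    (blockSys M (Subgroup.centralizer ((R'.map N.subtype : Subgroup G) : Set G) ⊓ N))
    (pairSys M G (R'.map N.subtype)) inf_le_left (fun g => suppIn_idem_inf hM hk g) i
  have hmul := congrArg (Block.incl N) ha.mul_idem
  rw [map_mul, ← trunc_incl] at hmul
  have htB : trunc (R'.map N.subtype) ((blockSysTop M).idem B) *
      (blockSys M _).idem i = (blockSys M _).idem i := by
    rw [hid, hidem]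
    exact hmul
  have hBc := centralIn_trunc_of_top ((blockSysTop M).central_idem B) (R'.map N.subtype)
  have hp' : IsPGroup p (R'.map N.subtype) := ha.1.map _
  have hBfix : Fixed (R'.map N.subtype) ((blockSysTop M).idem B) :=
    ((blockSysTop M).central_idem B).fixed.mono le_top
  have hgi : (pairSys M G (R'.map N.subtype)).idem g * (blockSys M _).idem i =
      (blockSys M _).idem i :=
    (blockSys M _).mul_idem_eq_of_lam_one
      ⟨suppIn_idem_inf hM hk g,
        ((pairSys M G (R'.map N.subtype)).central_idem g).fixed.mono inf_le_left⟩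
      ((pairSys M G (R'.map N.subtype)).idem_mul_self g) hg
  have hpair : PairOf (blockSysTop M) (pairSys M G) p B ⟨R'.map N.subtype, g⟩ := by
    refine ⟨hp', ?_⟩
    rcases (pairSys M G (R'.map N.subtype)).mul_idem_cases g hBc
      (by rw [← trunc_mul hp' hBfix hBfix, (blockSysTop M).idem_mul_self]) with ⟨-, h0⟩ | ⟨h1, -⟩
    · refine absurd ?_ ((blockSys M _).idem_ne_zero i)
      rw [← htB]
      conv_lhs => rw [← hgi]
      rw [← mul_assoc, h0, zero_mul]
    · exact h1
  have hxN : (x : G) ∈ Subgroup.normalizer ((R'.map N.subtype : Subgroup G) : Set G) :=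
    Subgroup.le_normalizer_map N.subtype ⟨x, hx.1, rfl⟩
  have hxi : cj (x : G) ((blockSys M _).idem i) = (blockSys M _).idem i := by
    rw [hidem, cj_incl, hx.2]
  have hst : (x : G) ∈ stab (⟨R'.map N.subtype, g⟩ : PairIdx M G) :=
    ⟨hxN, cj_above _ _ inf_le_left (fun g => suppIn_idem_inf hM hk g) hg
      (normalizer_le_normalizer_centralizer _ hxN) hxi⟩
  have hreg' : IsPRegular p (x : G) := by
    unfold IsPRegular
    rwa [Subgroup.orderOf_coe]
  have h5 := hnil ⟨_, g⟩ hpair _ hst hreg'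
  rw [Subgroup.mem_centralizer_iff]
  intro r hr
  exact Subtype.ext (Subgroup.mem_centralizer_iff.1 h5 _ ⟨r, hr, rfl⟩)

theorem isNilpotentBlock_ext (hM : IsPModular p M) {N : Subgroup G} [N.Normal] {k : ℕ}
    (hk : N.index = p ^ k) {c : Blk M N} {B : Blk M G}
    (hid : (blockSysTop M).idem B = (blockSys M N).idem c) (hnil : IsNilpotentBlock p M c.1) :
    IsNilpotentBlock p M B.1 := by
  rw [isNilpotentBlock_iff] at hnil ⊢
  rintro ⟨R, g⟩ ha x hx hreg
  have hxN : x ∈ N := mem_of_isPRegular hM.1 hk hreg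
  have hR0 : R ⊓ N ≤ R := inf_le_left
  have hN0 : R ≤ Subgroup.normalizer ((R ⊓ N : Subgroup G) : Set G) :=
    fun r hr => le_normalizer_inf_normal (Subgroup.le_normalizer hr)
  obtain ⟨g0, hg0, hu⟩ := existsUnique_nsub (pairSys M G) (p := p) (b := ⟨R, g⟩) ha.1 hR0 hN0
  have hpair0 : PairOf (blockSysTop M) (pairSys M G) p B ⟨R ⊓ N, g0⟩ :=
    (hg0.pairOf_iff (S₀ := blockSysTop M) (B := B)).1 ha
  have hst0 : x ∈ stab (⟨R ⊓ N, g0⟩ : PairIdx M G) := by
    have hxn : x ∈ Subgroup.normalizer ((R ⊓ N : Subgroup G) : Set G) :=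
      le_normalizer_inf_normal hx.1
    obtain ⟨⟨R2, g2⟩, hb⟩ := exists_cjRel (S := pairSys M G) x ⟨R ⊓ N, g0⟩
    obtain rfl : R ⊓ N = R2 := (map_conj_of_mem_normalizer hxn).symm.trans hb.1
    obtain rfl : g2 = g0 := hu g2 (hg0.cjRel hb ⟨map_conj_of_mem_normalizer hx.1, hx.2.symm⟩)
    exact ⟨hxn, hb.2.symm⟩
  obtain ⟨i, hi⟩ := (blockSys M (Subgroup.centralizer ((R ⊓ N : Subgroup G) : Set G) ⊓ N)).exists_lam_one
    ⟨suppIn_idem_inf hM hk g0, ((pairSys M G (R ⊓ N)).central_idem g0).fixed.mono inf_le_left⟩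
    ((pairSys M G (R ⊓ N)).idem_mul_self g0) ((pairSys M G (R ⊓ N)).idem_ne_zero g0)
  have hxi := cj_below_eq hM hk hi hxN hreg hst0
  have hgi : (pairSys M G (R ⊓ N)).idem g0 * (blockSys M (Subgroup.centralizer ((R ⊓ N : Subgroup G) : Set G) ⊓ N)).idem i =
      (blockSys M (Subgroup.centralizer ((R ⊓ N : Subgroup G) : Set G) ⊓ N)).idem i :=
    (blockSys M _).mul_idem_eq_of_lam_one
      ⟨suppIn_idem_inf hM hk g0, ((pairSys M G (R ⊓ N)).central_idem g0).fixed.mono inf_le_left⟩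
      ((pairSys M G (R ⊓ N)).idem_mul_self g0) hi
  have hR' : ((R ⊓ N).subgroupOf N).map N.subtype = R ⊓ N :=
    Subgroup.map_subgroupOf_eq_of_le inf_le_right
  obtain ⟨i', hi'⟩ := exists_idem_eq (blockSys M (Subgroup.centralizer ((R ⊓ N : Subgroup G) : Set G) ⊓ N))
    (mapSys (pairSys M N ((R ⊓ N).subgroupOf N)))
    (by rw [centralizer_map_subtype_inf, hR']) i
  have hidem : Block.incl N ((pairSys M N ((R ⊓ N).subgroupOf N)).idem i') =
      (blockSys M (Subgroup.centralizer ((R ⊓ N : Subgroup G) : Set G) ⊓ N)).idem i := hi'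
  have hpairc : PairOf (blockSysTop M) (pairSys M N) p c ⟨(R ⊓ N).subgroupOf N, i'⟩ := by
    refine ⟨hpair0.1.of_equiv (Subgroup.subgroupOfEquivOfLe inf_le_right).symm, ?_⟩
    refine lam_eq_one_of_mul_eq _
      (centralIn_trunc_of_top ((blockSysTop M).central_idem c) _) (Block.incl_injective N ?_)
    rw [map_mul, ← trunc_incl, hR', hidem, show Block.incl N ((blockSysTop M).idem c) =
      (blockSys M N).idem c from rfl, ← hid, ← hgi, ← mul_assoc, hpair0.mul_idem]
  have hxst : (⟨x, hxN⟩ : N) ∈ stab (⟨(R ⊓ N).subgroupOf N, i'⟩ : PairIdx M N) := by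
    refine ⟨?_, Block.incl_injective N ?_⟩
    · rw [Subgroup.mem_normalizer_iff]
      exact fun z => Subgroup.mem_normalizer_iff.1 hst0.1 (z : G)
    · rw [← cj_incl, hidem]
      exact hxi
  have hc0 := hnil ⟨_, i'⟩ hpairc ⟨x, hxN⟩ hxst (by
    unfold IsPRegular
    rwa [Subgroup.orderOf_mk])
  have hfix0 : ∀ r ∈ R ⊓ N, x * r = r * x := fun r hr =>
    (congrArg Subtype.val (Subgroup.mem_centralizer_iff.1 hc0 ⟨r, hr.2⟩ hr)).symm
  rw [Subgroup.mem_centralizer_iff]
  intro r hr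
  set d := r⁻¹ * (x * r * x⁻¹) with hd
  have hdR : d ∈ R ⊓ N := by
    refine ⟨R.mul_mem (R.inv_mem hr) ((Subgroup.mem_normalizer_iff.1 hx.1 r).1 hr), ?_⟩
    rw [hd, show r⁻¹ * (x * r * x⁻¹) = (r⁻¹ * x * r) * x⁻¹ by group]
    exact N.mul_mem (by simpa using ‹N.Normal›.conj_mem x hxN r⁻¹) (N.inv_mem hxN)
  have key : ∀ n : ℕ, x ^ n * r * (x ^ n)⁻¹ = r * d ^ n := by
    intro n
    induction n with
    | zero => simp
    | succ n ih =>
      rw [show x ^ (n + 1) * r * (x ^ (n + 1))⁻¹ = x * (x ^ n * r * (x ^ n)⁻¹) * x⁻¹ by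
        rw [pow_succ']; group, ih]
      have h6 := hfix0 (d ^ n) (pow_mem hdR n)
      calc x * (r * d ^ n) * x⁻¹ = (x * r * x⁻¹) * (x * d ^ n) * x⁻¹ := by group
        _ = (r * d) * (d ^ n * x) * x⁻¹ := by rw [h6]; rw [hd]; group
        _ = r * d ^ (n + 1) := by rw [pow_succ']; group
  have hdm : d ^ orderOf x = 1 := by
    have := key (orderOf x)
    rw [pow_orderOf_eq_one] at this
    simpa using this
  obtain ⟨a, ha'⟩ := (IsPGroup.iff_orderOf.1 hpair0.1) ⟨d, hdR⟩
  rw [Subgroup.orderOf_mk] at ha'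
  have hd1 : d = 1 := by
    rw [← orderOf_eq_one_iff, ha']
    exact Nat.eq_one_of_dvd_coprimes ((((Nat.Prime.coprime_iff_not_dvd hM.1).2 hreg)).pow_left a)
      dvd_rfl (ha' ▸ orderOf_dvd_of_pow_eq_one hdm)
  have h7 : x * r * x⁻¹ = r := by
    rw [hd] at hd1
    exact (inv_mul_eq_one.1 hd1).symm
  exact (mul_inv_eq_iff_eq_mul.1 h7).symm

end Cfsg.Agent.BrauerPairs
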