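import Cfsg.Agent.BrauerPairs.Lift

/-!
Averages over the conjugates of a block of a normal subgroup.
-/

namespace Cfsg.Agent.BrauerPairs

open MonoidAlgebra Cfsg

universe u

variable {p : ℕ} {M : Ideal AlgInt} [M.IsPrime] {G : Type u} [Group G] [Fintype G] [Fact p.Prime]
  [CharP (Block.ResF M) p]

omit [Fact p.Prime] [CharP (Block.ResF M) p] in
theorem sum_subgroupBlockCoeff_conj {P : Subgroup G} [P.Normal]
    (e : Blk M (Subgroup.centralizer (P : Set G))) (T : Subgroup G)
    (hT : ∀ x, x ∈ T ↔ cj x ((pairSys M G P).idem e) = (pairSys M G P).idem e) (g : G) :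
    ∑ x : G, subgroupBlockCoeff (Subgroup.centralizer (P : Set G)) e.1 (x⁻¹ * g * x) =
      (Nat.card T : ℂ) * ∑ i ∈ orbitIdx (pairSys M G) P e,
        subgroupBlockCoeff (Subgroup.centralizer (P : Set G)) i.1 g := by
  classical
  have hmap : ∀ x : G, (Subgroup.centralizer (P : Set G)).map (MulAut.conj x).toMonoidHom =
      Subgroup.centralizer (P : Set G) := fun x =>
    map_conj_of_mem_normalizer (normalizer_le_normalizer_centralizer P
      (by rw [Subgroup.normalizer_eq_top P]; exact Subgroup.mem_top x))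
  choose j hj hju using fun x =>
    (pairSys M G P).exists_idem_eq_cj (pairSys M G P) x (hmap x) e
  have hterm : ∀ x : G, subgroupBlockCoeff (Subgroup.centralizer (P : Set G)) e.1 (x⁻¹ * g * x) =
      subgroupBlockCoeff (Subgroup.centralizer (P : Set G)) (j x).1 g := fun x =>
    (subgroupBlockCoeff_cj x (hmap x) (hj x) g).symm
  have hmem : ∀ x ∈ (Finset.univ : Finset G), j x ∈ orbitIdx (pairSys M G) P e := fun x _ =>
    mem_orbitIdx.2 ⟨x, by rw [Subgroup.normalizer_eq_top P]; exact Subgroup.mem_top x, hj x⟩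
  rw [Finset.mul_sum, ← Finset.sum_fiberwise_of_maps_to hmem]
  refine Finset.sum_congr rfl fun i hi => ?_
  obtain ⟨x₀, -, hx₀⟩ := mem_orbitIdx.1 hi
  have hcard : (Finset.univ.filter fun x => j x = i).card = Nat.card T := by
    rw [Nat.card_eq_fintype_card, ← Finset.card_univ]
    symm
    refine Finset.card_bij (fun t _ => x₀ * (t : G)) (fun t _ => ?_) (fun t _ t' _ h => ?_)
      fun x hx => ?_
    · rw [Finset.mem_filter]
      refine ⟨Finset.mem_univ _, (pairSys M G P).idem_injective ?_⟩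
      rw [hj, ← cj_cj, (hT t).1 t.2, hx₀]
    · exact Subtype.ext (mul_left_cancel h)
    · rw [Finset.mem_filter] at hx
      refine ⟨⟨x₀⁻¹ * x, (hT _).2 ?_⟩, Finset.mem_univ _, mul_inv_cancel_left x₀ x⟩
      rw [← cj_cj, ← hj x, hx.2, hx₀, cj_inv_cj]
  rw [Finset.sum_congr rfl (g := fun _ =>
    subgroupBlockCoeff (Subgroup.centralizer (P : Set G)) i.1 g) fun x hx => by
      rw [hterm, (Finset.mem_filter.1 hx).2], Finset.sum_const, hcard, nsmul_eq_mul]

end Cfsg.Agent.BrauerPairs
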