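import Cfsg.Agent.BlockVal.HeightZero
import Cfsg.Agent.Block.Degrees
import Cfsg.Agent.BrauerPairs.Bridge
import Cfsg.Agent.S0887

/-!
Weights: a character trivial on `Q` of defect zero modulo `Q` forces `Z(Q)` to be the defect group
of the local block.
-/

namespace Cfsg.Agent.BrauerPairs

open Cfsg
open scoped ComplexConjugate
open Cfsg.Agent.Brauer (regSum)

universe u

section Generic

variable {H : Type u} [Group H] [Fintype H]

/-- A constituent of a character restricted to a subgroup contains every element of that subgroup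
lying in the kernel. -/
theorem constituent_ker {χ : H → ℂ} (hχ : IsCharacter H χ) {a : H} (ha : χ a = χ 1)
    {φ : IrrCharacter H} (hφ : classInner χ (φ : H → ℂ) ≠ 0) :
    (φ : H → ℂ) a = (φ : H → ℂ) 1 := by
  classical
  choose m hm using fun ψ => Char.isCharacter_classInner_nat hχ ψ
  have he := Char.eq_sum_classInner_smul (Char.isCharacter_isClassFunction hχ)
  have h1 : ∀ x : H, χ x = ∑ ψ : IrrCharacter H, (m ψ : ℂ) * (ψ : H → ℂ) x := fun x => by
    conv_lhs => rw [he]
    simp [Finset.sum_apply, hm]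
  have hle : ∀ ψ : IrrCharacter H, ((ψ : H → ℂ) a).re ≤ ((ψ : H → ℂ) 1).re := fun ψ =>
    (Complex.re_le_norm _).trans (Char.isCharacter_norm_le (Char.isCharacter_of_irr ψ.2) a)
  have hsum : ∑ ψ : IrrCharacter H,
      (m ψ : ℝ) * (((ψ : H → ℂ) 1).re - ((ψ : H → ℂ) a).re) = 0 := by
    have h2 := congrArg Complex.re ((h1 a).symm.trans (ha.trans (h1 1)))
    simp only [Complex.re_sum, Complex.mul_re, Complex.natCast_re, Complex.natCast_im, zero_mul,
      sub_zero] at h2
    simp only [mul_sub, Finset.sum_sub_distrib, h2, sub_self]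
  have h3 := (Finset.sum_eq_zero_iff_of_nonneg fun ψ _ =>
    mul_nonneg (Nat.cast_nonneg _) (sub_nonneg.2 (hle ψ))).1 hsum φ (Finset.mem_univ φ)
  have hmφ : (m φ : ℝ) ≠ 0 := by
    intro h0
    apply hφ
    rw [hm φ]
    exact_mod_cast h0
  have h4 := (mul_eq_zero.1 h3).resolve_left hmφ
  rw [sub_eq_zero] at h4
  obtain ⟨n, hn⟩ := Char.isCharacter_one_nat (Char.isCharacter_of_irr φ.2)
  have hnorm : ‖(φ : H → ℂ) a‖ ≤ ((φ : H → ℂ) a).re :=
    h4 ▸ Char.isCharacter_norm_le (Char.isCharacter_of_irr φ.2) a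
  have him : ((φ : H → ℂ) a).im = 0 := by
    have h5 := Complex.sq_norm ((φ : H → ℂ) a)
    rw [Complex.normSq_apply] at h5
    have h6 := Complex.re_le_norm ((φ : H → ℂ) a)
    have h7 : ‖(φ : H → ℂ) a‖ = ((φ : H → ℂ) a).re := le_antisymm hnorm h6
    rw [h7] at h5
    nlinarith
  apply Complex.ext
  · exact h4.symm
  · rw [him, hn, Complex.natCast_im]

theorem charDegree_cast {χ : H → ℂ} (hχ : IsIrrCharacter H χ) :
    χ 1 = (charDegree χ : ℂ) ∧ charDegree χ ≠ 0 :=
  ⟨(Block.irr_one_eq_charDegree hχ).1, (Block.irr_one_eq_charDegree hχ).2.1.ne'⟩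

theorem sum_normSq_irr {χ : H → ℂ} (hχ : IsIrrCharacter H χ) :
    ∑ x : H, Complex.normSq (χ x) = (Nat.card H : ℝ) := by
  have h2 := Char.classInner_irr_self hχ
  rw [classInner, inv_mul_eq_iff_eq_mul₀ (Nat.cast_ne_zero.mpr Nat.card_pos.ne'), mul_one] at h2
  have h : ((∑ x : H, Complex.normSq (χ x) : ℝ) : ℂ) = (Nat.card H : ℂ) := by
    rw [← h2, Complex.ofReal_sum]
    exact Finset.sum_congr rfl fun x _ => (Complex.mul_conj _).symm
  exact_mod_cast h

variable {p : ℕ} [Fact p.Prime] {M : Ideal AlgInt}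

/-- A member trivial on the central `p`-subgroup `Z`, with the full `p`-part of `|H/Z|` in its
degree, makes `Z` the defect group of its block. -/
theorem defectGroup_eq_of_central_weight (hM : IsPModular p M) {B : Set (IrrCharacter H)}
    (hB : IsPBlock M B) (Z : Subgroup H) [Z.Normal] (hZc : Z ≤ Subgroup.center H)
    (hZp : IsPGroup p Z) {θ : IrrCharacter H} (hθ : θ ∈ B)
    (hker : ∀ z ∈ Z, (θ : H → ℂ) z = (θ : H → ℂ) 1)
    (hdeg : (Nat.card H).factorization p ≤
      (charDegree (θ : H → ℂ)).factorization p + (Nat.card Z).factorization p) :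
    IsDefectGroup p M B Z := by
  classical
  haveI : M.IsPrime := hM.2.1.isPrime
  have hp := hM.1
  obtain ⟨zz, hzz⟩ := IsPGroup.iff_card.1 hZp
  have hz : (Nat.card Z).factorization p = zz := by
    rw [hzz, hp.factorization_pow, Finsupp.single_eq_same]
  set a := (Nat.card H).factorization p with ha
  set b := (charDegree (θ : H → ℂ)).factorization p with hb
  obtain ⟨n, hn, hbn, -⟩ := BlockVal.cReg_int (p := p) θ θ
  let s : ℝ := ∑ x ∈ Finset.univ.filter (fun x : H => ¬ p ∣ orderOf x),
    Complex.normSq ((θ : H → ℂ) x)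
  have hsZ : (Nat.card Z : ℝ) * s ≤ (Nat.card H : ℝ) := by
    rw [← sum_normSq_irr θ.2]
    let f : H × Z → H := fun t => t.1 * (t.2 : H)
    have hval : ∀ t : H × Z, Complex.normSq ((θ : H → ℂ) (f t)) =
        Complex.normSq ((θ : H → ℂ) t.1) := fun t => by
      show Complex.normSq ((θ : H → ℂ) (t.1 * (t.2 : H))) = _
      rw [(Char.isCharacter_mul_of_mem_ker (Char.isCharacter_of_irr θ.2) (hker _ t.2.2) t.1).2]
    have hinj : Set.InjOn f ↑(Finset.univ.filter (fun x : H => ¬ p ∣ orderOf x) ×ˢ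
        (Finset.univ : Finset Z)) := by
      rintro ⟨y, z⟩ hy ⟨y', z'⟩ hy' heq
      simp only [Finset.coe_product, Set.mem_prod, Finset.coe_filter, Set.mem_setOf_eq,
        Finset.mem_univ, true_and, Finset.coe_univ, Set.mem_univ, and_true] at hy hy'
      simp only [f] at heq
      set w : Z := z' * z⁻¹ with hw
      have hyw : y = y' * (w : H) := by
        rw [hw, Subgroup.coe_mul, Subgroup.coe_inv, ← mul_assoc, ← heq, mul_inv_cancel_right]
      have hcomm : Commute y' (w : H) :=
        (Subgroup.mem_center_iff.1 (hZc w.2) y' : y' * (w : H) = (w : H) * y')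
      have hwn : (w : H) ^ (orderOf y * orderOf y') = 1 := by
        have h1 : y ^ (orderOf y * orderOf y') = 1 := by rw [pow_mul, pow_orderOf_eq_one, one_pow]
        have h2 : y' ^ (orderOf y * orderOf y') = 1 := by
          rw [mul_comm, pow_mul, pow_orderOf_eq_one, one_pow]
        rw [hyw, hcomm.mul_pow] at h1
        rw [← hyw] at h1
        rwa [h2, one_mul] at h1
      obtain ⟨j, hj⟩ := IsPGroup.iff_orderOf.1 hZp w
      have hd : p ^ j ∣ orderOf y * orderOf y' := by
        rw [← hj, ← Subgroup.orderOf_coe]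
        exact orderOf_dvd_of_pow_eq_one hwn
      have hcop : (p ^ j).Coprime (orderOf y * orderOf y') :=
        Nat.Coprime.pow_left j (Nat.Coprime.mul_right (hp.coprime_iff_not_dvd.2 hy)
          (hp.coprime_iff_not_dvd.2 hy'))
      have hw1 : w = 1 := by
        rw [← orderOf_eq_one_iff, hj]
        exact Nat.Coprime.eq_one_of_dvd hcop hd
      have hyy : y = y' := by rw [hyw, hw1, Subgroup.coe_one, mul_one]
      have hzz' : z = z' := by
        rw [hw, mul_inv_eq_one] at hw1
        exact hw1.symm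
      rw [hyy, hzz']
    calc (Nat.card Z : ℝ) * s
        = ∑ t ∈ Finset.univ.filter (fun x : H => ¬ p ∣ orderOf x) ×ˢ (Finset.univ : Finset Z),
            Complex.normSq ((θ : H → ℂ) t.1) := by
          rw [Finset.sum_product]
          simp only [Finset.sum_const, Finset.card_univ, nsmul_eq_mul, s, Finset.mul_sum,
            Nat.card_eq_fintype_card]
      _ = ∑ x ∈ (Finset.univ.filter (fun x : H => ¬ p ∣ orderOf x) ×ˢ
            (Finset.univ : Finset Z)).image f, Complex.normSq ((θ : H → ℂ) x) := by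
          rw [Finset.sum_image hinj]
          exact Finset.sum_congr rfl fun t _ => (hval t).symm
      _ ≤ _ := Finset.sum_le_univ_sum_of_nonneg fun x => Complex.normSq_nonneg _
  have hns : (n : ℝ) = (p : ℝ) ^ a * s / (Nat.card H : ℝ) := by
    have : ((n : ℝ) : ℂ) = (((p : ℝ) ^ a * s / (Nat.card H : ℝ) : ℝ) : ℂ) := by
      rw [Complex.ofReal_intCast, ← hn, BlockVal.cReg, regSum]
      simp only [Complex.mul_conj, s]
      push_cast
      rfl
    exact_mod_cast this
  have hcard : (0 : ℝ) < (Nat.card H : ℝ) := by exact_mod_cast Nat.card_pos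
  have hppos : (0 : ℝ) < (p : ℝ) ^ a := by
    have : (0:ℝ) < p := by exact_mod_cast hp.pos
    positivity
  have hspos : 0 < s := by
    refine Finset.sum_pos' (fun x _ => Complex.normSq_nonneg _) ⟨1, ?_, ?_⟩
    · simpa using hp.one_lt.ne'
    · rw [(charDegree_cast θ.2).1, Complex.normSq_natCast]
      exact mul_self_pos.mpr (Nat.cast_ne_zero.mpr (charDegree_cast θ.2).2)
  have hnpos : 0 < n := by
    have : (0 : ℝ) < n := by rw [hns]; positivity
    exact_mod_cast this
  have hnle : (p : ℤ) ^ zz * n ≤ (p : ℤ) ^ a := by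
    have h1 : ((p : ℝ) ^ zz) * n ≤ (p : ℝ) ^ a := by
      rw [hns, hzz] at *
      push_cast at hsZ
      rw [← mul_div_assoc, div_le_iff₀ hcard]
      calc (p : ℝ) ^ zz * ((p : ℝ) ^ a * s) = (p : ℝ) ^ a * ((p : ℝ) ^ zz * s) := by ring
        _ ≤ _ := mul_le_mul_of_nonneg_left hsZ hppos.le
    exact_mod_cast h1
  have hp1 : (1 : ℤ) < p := by exact_mod_cast hp.one_lt
  have hble : (p : ℤ) ^ b ≤ n := Int.le_of_dvd hnpos hbn
  have hbz : b + zz ≤ a := by
    by_contra hcon
    have h1 : (p : ℤ) ^ a < (p : ℤ) ^ (b + zz) := pow_lt_pow_right₀ hp1 (by omega)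
    have h2 : (p : ℤ) ^ (b + zz) ≤ (p : ℤ) ^ zz * n := by
      rw [pow_add, mul_comm]
      exact mul_le_mul_of_nonneg_left hble (by positivity)
    omega
  have hnd : ¬ (p : ℤ) ^ (b + 1) ∣ n := fun hd => by
    have h1 := Int.le_of_dvd hnpos hd
    have h2 : (p : ℤ) ^ (zz + (b + 1)) ≤ (p : ℤ) ^ zz * n := by
      rw [pow_add]
      exact mul_le_mul_of_nonneg_left h1 (by positivity)
    have h3 : (p : ℤ) ^ a < (p : ℤ) ^ (zz + (b + 1)) := pow_lt_pow_right₀ hp1 (by omega)
    omega
  have h0 := BlockVal.height_zero_of_not_dvd_succ hM hB hθ hθ hn hnd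
  have hd := BlockVal.blockDefect_eq hθ h0
  obtain ⟨D, hD⟩ := Block.exists_isDefectGroup (p := p) hB
  have hDc := Block.card_isDefectGroup hM hB hD
  have hle := Block.normal_le_isDefectGroup hM hB hD hZp
  have : Z = D := by
    refine Subgroup.eq_of_le_of_card_ge hle (le_of_eq ?_)
    rw [hDc, hzz, hd]
    congr 1
    omega
  exact this ▸ hD

/-- A normal `p`-subgroup of a group with a character of defect zero modulo `Q` lies in `Q`. -/
theorem normal_pSubgroup_le_of_weight {Q N : Subgroup H} [N.Normal] (hN : IsPGroup p N)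
    (hQN : Q ≤ N) (χ : IrrCharacter H) (hker : ∀ q ∈ Q, (χ : H → ℂ) q = (χ : H → ℂ) 1)
    (hdeg : (charDegree (χ : H → ℂ)).factorization p + (Nat.card Q).factorization p =
      (Nat.card H).factorization p) : N ≤ Q := by
  classical
  have hp : p.Prime := Fact.out
  have hχN : IsCharacter N (fun x : N => (χ : H → ℂ) x) :=
    Char.isCharacter_restrict (Char.isCharacter_of_irr χ.2) N
  obtain ⟨φ, hφ⟩ : ∃ φ : IrrCharacter N, classInner (fun x : N => (χ : H → ℂ) x)
      (φ : N → ℂ) ≠ 0 := by
    by_contra hcon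
    push Not at hcon
    have h1 := congrFun (Char.eq_sum_classInner_smul (Char.isCharacter_isClassFunction hχN)) 1
    simp [Finset.sum_apply, hcon, Char.irr_one_ne_zero χ.2] at h1
  obtain ⟨hdvd, hidx⟩ := S0887.result N _ χ.2 _ φ.2 hφ _ _ (charDegree_cast χ.2).1
    (charDegree_cast φ.2).1
  have hφQ : ∀ q : N, (q : H) ∈ Q → ∀ x : N,
      (φ : N → ℂ) (q * x) = (φ : N → ℂ) x := fun q hq x =>
    (Char.isCharacter_mul_of_mem_ker (Char.isCharacter_of_irr φ.2)
      (constituent_ker hχN (a := q) (by simpa using hker _ hq) hφ) x).1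
  -- the norm on `Q` alone
  have hsq : (charDegree (φ : N → ℂ) : ℝ) ^ 2 * Nat.card Q ≤ Nat.card N := by
    rw [← sum_normSq_irr φ.2]
    calc (charDegree (φ : N → ℂ) : ℝ) ^ 2 * Nat.card Q
        = ∑ q : Q, Complex.normSq ((φ : N → ℂ) ⟨q, hQN q.2⟩) := by
          rw [Finset.sum_congr rfl (g := fun _ => ((charDegree (φ : N → ℂ) : ℝ) ^ 2)) fun q _ => ?_]
          · simp [Finset.sum_const, Nat.card_eq_fintype_card, mul_comm]
          · have h := hφQ ⟨q, hQN q.2⟩ q.2 1
            rw [mul_one] at h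
            rw [h, (charDegree_cast φ.2).1, Complex.normSq_natCast, sq]
      _ = ∑ x ∈ (Finset.univ : Finset Q).image (fun q : Q => (⟨(q : H), hQN q.2⟩ : N)),
            Complex.normSq ((φ : N → ℂ) x) :=
          by
            rw [Finset.sum_image]
            exact fun a _ b _ hab => Subtype.ext (congrArg (fun t : N => (t : H)) hab)
      _ ≤ _ := Finset.sum_le_univ_sum_of_nonneg fun x => Complex.normSq_nonneg _
  have hsq' : charDegree (φ : N → ℂ) ^ 2 * Nat.card Q ≤ Nat.card N := by exact_mod_cast hsq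
  obtain ⟨nn, hnn⟩ := IsPGroup.iff_card.1 hN
  obtain ⟨qq, hqq⟩ := IsPGroup.iff_card.1 (hN.to_le hQN)
  set d := charDegree (φ : N → ℂ) with hd
  set c := charDegree (χ : H → ℂ) with hc
  have hd0 : d ≠ 0 := (charDegree_cast φ.2).2
  have hc0 : c ≠ 0 := (charDegree_cast χ.2).2
  have hcd : c / d ≠ 0 := (Nat.div_pos (Nat.le_of_dvd (Nat.pos_of_ne_zero hc0) hdvd)
    (Nat.pos_of_ne_zero hd0)).ne'
  have h1 : (c / d).factorization p ≤ N.index.factorization p :=
    (Nat.factorization_le_iff_dvd hcd Subgroup.index_ne_zero_of_finite).2 hidx p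
  have h2 : c.factorization p = (c / d).factorization p + d.factorization p := by
    conv_lhs => rw [← Nat.div_mul_cancel hdvd]
    rw [Nat.factorization_mul hcd hd0, Finsupp.add_apply]
  have h3 : (Nat.card H).factorization p = nn + N.index.factorization p := by
    rw [← Subgroup.card_mul_index N, Nat.factorization_mul Nat.card_pos.ne'
      Subgroup.index_ne_zero_of_finite, Finsupp.add_apply, hnn, hp.factorization_pow,
      Finsupp.single_eq_same]
  rw [hqq, hp.factorization_pow, Finsupp.single_eq_same] at hdeg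
  have h4 : p ^ d.factorization p ≤ d := Nat.le_of_dvd (Nat.pos_of_ne_zero hd0)
    (Nat.ordProj_dvd d p)
  have h5 : p ^ (2 * d.factorization p + qq) ≤ p ^ nn := by
    rw [← hnn, pow_add, pow_mul', ← hqq]
    exact le_trans (Nat.mul_le_mul_right _ (Nat.pow_le_pow_left h4 2)) hsq'
  have h6 := (Nat.pow_le_pow_iff_right hp.one_lt).1 h5
  have h7 : nn ≤ qq := by omega
  refine le_of_eq (Subgroup.eq_of_le_of_card_ge hQN ?_).symm
  rw [hnn, hqq]
  exact Nat.pow_le_pow_right hp.pos h7

end Generic

section Subpair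

variable {p : ℕ} [Fact p.Prime] {M : Ideal AlgInt} {G : Type u} [Group G] [Finite G]

theorem weight_defectGroup (hM : IsPModular p M) {Q T : Subgroup G} (hQ : IsPGroup p Q)
    (hQT : Q ≤ T) (hCT : Subgroup.centralizer (Q : Set G) ≤ T)
    (hTN : T ≤ Subgroup.normalizer (Q : Set G))
    {e : Set (IrrCharacter (Subgroup.centralizer (Q : Set G)))} (he : IsPBlock M e)
    {F' : Set (IrrCharacter T)}
    (hF'e : ∀ t : T, blockCoeff F' t =
      subgroupBlockCoeff (Subgroup.centralizer (Q : Set G)) e (t : G))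
    {χ : IrrCharacter T} (hχ : χ ∈ F')
    (hker : ∀ q : T, (q : G) ∈ Q → (χ : T → ℂ) q = (χ : T → ℂ) 1)
    (hdeg : (charDegree (χ : T → ℂ)).factorization p + (Nat.card Q).factorization p =
      (Nat.card T).factorization p) :
    IsDefectGroup p M e ((Q ⊓ Subgroup.centralizer (Q : Set G)).subgroupOf
      (Subgroup.centralizer (Q : Set G))) := by
  classical
  haveI : M.IsPrime := hM.2.1.isPrime
  haveI := Fintype.ofFinite T
  haveI := Fintype.ofFinite (Subgroup.centralizer (Q : Set G))
  let ι : Subgroup.centralizer (Q : Set G) →* T := Subgroup.inclusion hCT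
  -- a constituent in `e`
  have hι : IsCharacter (Subgroup.centralizer (Q : Set G)) ((χ : T → ℂ) ∘ ι) :=
    Char.isCharacter_comp (Char.isCharacter_of_irr χ.2) ι
  obtain ⟨θ₀, hθ₀, hin₀⟩ : ∃ θ ∈ e, classInner ((χ : T → ℂ) ∘ ι)
      ((θ : IrrCharacter (Subgroup.centralizer (Q : Set G))) :
        Subgroup.centralizer (Q : Set G) → ℂ) ≠ 0 := by
    by_contra hcon
    push Not at hcon
    have h1 := Block.omega_blockIdem F' χ
    rw [if_pos hχ, Block.omega_eq_sum] at h1
    have h2 : ∑ t : T, (Block.blockIdem F').coeff t * (χ : T → ℂ) t =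
        ∑ c : Subgroup.centralizer (Q : Set G), blockCoeff e c * (χ : T → ℂ) (ι c) := by
      rw [← Finset.sum_subset (Finset.subset_univ ((Finset.univ :
        Finset (Subgroup.centralizer (Q : Set G))).image ι)) fun t _ ht => ?_]
      · rw [Finset.sum_image fun a _ b _ h => Subgroup.inclusion_injective hCT h]
        refine Finset.sum_congr rfl fun c _ => ?_
        rw [Block.coeff_blockIdem, hF'e]
        unfold subgroupBlockCoeff
        rw [dif_pos (show ((ι c : T) : G) ∈ _ from c.2)]
        rfl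
      · rw [Block.coeff_blockIdem, hF'e]
        unfold subgroupBlockCoeff
        rw [dif_neg, zero_mul]
        exact fun hc => ht (Finset.mem_image.2 ⟨⟨t, hc⟩, Finset.mem_univ _, rfl⟩)
    rw [h2] at h1
    have h3 : ∑ c : Subgroup.centralizer (Q : Set G), blockCoeff e c * (χ : T → ℂ) (ι c) = 0 := by
      have hexp := Char.eq_sum_classInner_smul (Char.isCharacter_isClassFunction hι)
      calc _ = ∑ c, blockCoeff e c * ∑ θ : IrrCharacter (Subgroup.centralizer (Q : Set G)),
            classInner ((χ : T → ℂ) ∘ ι) (θ : _ → ℂ) * (θ : _ → ℂ) c :=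
            Finset.sum_congr rfl fun c _ => by
              congr 1
              have := congrFun hexp c
              simpa [Finset.sum_apply] using this
        _ = 0 := by
          simp_rw [Finset.mul_sum]
          rw [Finset.sum_comm]
          refine Finset.sum_eq_zero fun θ _ => ?_
          by_cases hθ : θ ∈ e
          · simp [hcon θ hθ]
          · have h4 := Block.omega_blockIdem e θ
            rw [if_neg hθ, Block.omega_eq_sum, div_eq_zero_iff] at h4
            have h5 := h4.resolve_right (Char.irr_one_ne_zero θ.2)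
            rw [← mul_zero (classInner ((χ : T → ℂ) ∘ ι) (θ : _ → ℂ)), ← h5, Finset.mul_sum]
            exact Finset.sum_congr rfl fun c _ => by rw [Block.coeff_blockIdem]; ring
    rw [h3, zero_div] at h1
    exact zero_ne_one h1
  -- the normal subgroup `Q C(Q)` of `T`
  set QT : Subgroup T := Q.subgroupOf T with hQT'
  set CT : Subgroup T := (Subgroup.centralizer (Q : Set G)).subgroupOf T with hCT'
  haveI : QT.Normal := Subgroup.normal_subgroupOf_of_le_normalizer hTN
  haveI : CT.Normal := Subgroup.normal_subgroupOf_of_le_normalizer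
    (hTN.trans (normalizer_le_normalizer_centralizer Q))
  set N0 : Subgroup T := QT ⊔ CT with hN0
  haveI : N0.Normal := Subgroup.sup_normal QT CT
  haveI := Fintype.ofFinite N0
  let j : Subgroup.centralizer (Q : Set G) →* N0 :=
    ι.codRestrict N0 fun c => Subgroup.mem_sup_right (show (ι c : G) ∈ _ from c.2)
  set Q0 : Subgroup N0 := QT.subgroupOf N0 with hQ0
  haveI : Q0.Normal := Subgroup.normal_subgroupOf
  let j' : Subgroup.centralizer (Q : Set G) →* N0 ⧸ Q0 := (QuotientGroup.mk' Q0).comp j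
  have hsurj : Function.Surjective j' := by
    intro y
    obtain ⟨⟨x, hx⟩, rfl⟩ := QuotientGroup.mk'_surjective Q0 y
    obtain ⟨q, hq, c, hc, rfl⟩ := Subgroup.mem_sup_of_normal_left.1 hx
    refine ⟨⟨(c : G), hc⟩, ?_⟩
    show QuotientGroup.mk' Q0 (j ⟨(c : G), hc⟩) = _
    rw [QuotientGroup.mk'_eq_mk']
    refine ⟨⟨c⁻¹ * q * c, ?_⟩, ?_, ?_⟩
    · exact Subgroup.mem_sup_left (by simpa using ‹QT.Normal›.conj_mem q hq c⁻¹)
    · show c⁻¹ * q * c ∈ QT
      simpa using ‹QT.Normal›.conj_mem q hq c⁻¹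
    · apply Subtype.ext
      show c * (c⁻¹ * q * c) = q * c
      group
  have hχN : IsCharacter N0 (fun x : N0 => (χ : T → ℂ) x) :=
    Char.isCharacter_restrict (Char.isCharacter_of_irr χ.2) N0
  have hexp0 := Char.eq_sum_classInner_smul (Char.isCharacter_isClassFunction hχN)
  have hcomp : ((χ : T → ℂ) ∘ ι) = ∑ φ : IrrCharacter N0,
      classInner (fun x : N0 => (χ : T → ℂ) x) (φ : N0 → ℂ) • ((φ : N0 → ℂ) ∘ j) := by
    funext c
    have := congrFun hexp0 (j c)
    simp only [Finset.sum_apply, Pi.smul_apply, Function.comp_apply] at this ⊢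
    exact this
  rw [hcomp, Char.classInner_sum_left] at hin₀
  obtain ⟨φ, -, hφ⟩ := Finset.exists_ne_zero_of_sum_ne_zero hin₀
  rw [Char.classInner_smul_left] at hφ
  obtain ⟨hφ1, hφ2⟩ := mul_ne_zero_iff.1 hφ
  have hφker : ∀ q ∈ Q0, (φ : N0 → ℂ) q = (φ : N0 → ℂ) 1 := fun q hq =>
    constituent_ker hχN (a := q) (by simpa using hker (q : T) hq) hφ1
  obtain ⟨ψ, hψ, hψφ⟩ := Char.irr_exists_descend φ.2 Q0 hφker
  have hθeq : ((φ : N0 → ℂ) ∘ j) = ψ ∘ j' := funext fun c => hψφ (j c)
  have hθirr : IsIrrCharacter _ ((φ : N0 → ℂ) ∘ j) := by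
    rw [hθeq]; exact Char.isIrrCharacter_comp hψ j' hsurj
  have hθ₀eq : ((φ : N0 → ℂ) ∘ j) = (θ₀ : Subgroup.centralizer (Q : Set G) → ℂ) := by
    by_contra hne
    exact hφ2 (Char.classInner_irr_ne hθirr θ₀.2 hne)
  -- degrees
  have hd : charDegree (θ₀ : Subgroup.centralizer (Q : Set G) → ℂ) = charDegree (φ : N0 → ℂ) := by
    have h1 := (charDegree_cast θ₀.2).1
    rw [← hθ₀eq, Function.comp_apply, map_one, (charDegree_cast φ.2).1, hθ₀eq] at h1
    exact_mod_cast h1.symm
  set Z : Subgroup (Subgroup.centralizer (Q : Set G)) :=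
    (Q ⊓ Subgroup.centralizer (Q : Set G)).subgroupOf (Subgroup.centralizer (Q : Set G)) with hZ
  have hZc : Z ≤ Subgroup.center _ := by
    intro z hz
    rw [Subgroup.mem_center_iff]
    intro g
    exact Subtype.ext (Subgroup.mem_centralizer_iff.1 g.2 z hz.1).symm
  haveI : Z.Normal := ⟨fun z hz g => by
    rw [Subgroup.mem_center_iff.1 (hZc hz) g, mul_inv_cancel_right]; exact hz⟩
  have hZp : IsPGroup p Z :=
    (hQ.to_le inf_le_left).of_equiv (Subgroup.subgroupOfEquivOfLe inf_le_right).symm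
  have hkerj : j'.ker = Z := by
    ext c
    rw [MonoidHom.mem_ker]
    show QuotientGroup.mk' Q0 (j c) = 1 ↔ _
    rw [QuotientGroup.mk'_apply, QuotientGroup.eq_one_iff]
    exact ⟨fun h => ⟨h, c.2⟩, fun h => h.1⟩
  have hcardC : Nat.card Z * Q0.index = Nat.card (Subgroup.centralizer (Q : Set G)) := by
    rw [← hkerj, ← Subgroup.card_mul_index j'.ker, Subgroup.index_ker,
      MonoidHom.range_eq_top.2 hsurj, Subgroup.card_top, Subgroup.index_eq_card]
  have hcardQ0 : Nat.card Q0 = Nat.card Q := by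
    rw [Nat.card_congr (Subgroup.subgroupOfEquivOfLe (le_sup_left : QT ≤ N0)).toEquiv,
      Nat.card_congr (Subgroup.subgroupOfEquivOfLe hQT).toEquiv]
  obtain ⟨hdvd, hidx⟩ := S0887.result N0 _ χ.2 _ φ.2 hφ1 _ _ (charDegree_cast χ.2).1
    (charDegree_cast φ.2).1
  refine defectGroup_eq_of_central_weight hM he Z hZc hZp hθ₀ (fun z hz => ?_) ?_
  · rw [← hθ₀eq, hθeq]
    rw [← hkerj, MonoidHom.mem_ker] at hz
    simp [Function.comp_apply, hz]
  · set d := charDegree (φ : N0 → ℂ) with hdd
    set c := charDegree (χ : T → ℂ) with hc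
    have hd0 : d ≠ 0 := (charDegree_cast φ.2).2
    have hc0 : c ≠ 0 := (charDegree_cast χ.2).2
    have hcd : c / d ≠ 0 := (Nat.div_pos (Nat.le_of_dvd (Nat.pos_of_ne_zero hc0) hdvd)
      (Nat.pos_of_ne_zero hd0)).ne'
    have h1 : (c / d).factorization p ≤ N0.index.factorization p :=
      (Nat.factorization_le_iff_dvd hcd Subgroup.index_ne_zero_of_finite).2 hidx p
    have h2 : c.factorization p = (c / d).factorization p + d.factorization p := by
      conv_lhs => rw [← Nat.div_mul_cancel hdvd]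
      rw [Nat.factorization_mul hcd hd0, Finsupp.add_apply]
    have h3 : (Nat.card T).factorization p =
        (Nat.card Q).factorization p + Q0.index.factorization p + N0.index.factorization p := by
      rw [← Subgroup.card_mul_index N0, ← Subgroup.card_mul_index Q0, hcardQ0,
        Nat.factorization_mul (mul_ne_zero Nat.card_pos.ne' Subgroup.index_ne_zero_of_finite)
          Subgroup.index_ne_zero_of_finite,
        Nat.factorization_mul Nat.card_pos.ne' Subgroup.index_ne_zero_of_finite,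
        Finsupp.add_apply, Finsupp.add_apply]
    have h4 : (Nat.card (Subgroup.centralizer (Q : Set G))).factorization p =
        (Nat.card Z).factorization p + Q0.index.factorization p := by
      rw [← hcardC, Nat.factorization_mul Nat.card_pos.ne' Subgroup.index_ne_zero_of_finite,
        Finsupp.add_apply]
    rw [hd]
    omega

theorem weight_radical {Q T R : Subgroup G} (hQ : IsPGroup p Q) (hQT : Q ≤ T)
    (hTN : T ≤ Subgroup.normalizer (Q : Set G)) (hRT : R ≤ T) (hR : IsPGroup p R)
    (hRn : T ≤ Subgroup.normalizer (R : Set G)) {χ : IrrCharacter T}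
    (hker : ∀ q : T, (q : G) ∈ Q → (χ : T → ℂ) q = (χ : T → ℂ) 1)
    (hdeg : (charDegree (χ : T → ℂ)).factorization p + (Nat.card Q).factorization p =
      (Nat.card T).factorization p) : R ≤ Q := by
  haveI := Fintype.ofFinite T
  haveI : (Q.subgroupOf T).Normal := Subgroup.normal_subgroupOf_of_le_normalizer hTN
  haveI : (R.subgroupOf T).Normal := Subgroup.normal_subgroupOf_of_le_normalizer hRn
  have hQ' : IsPGroup p (Q.subgroupOf T) := hQ.of_equiv (Subgroup.subgroupOfEquivOfLe hQT).symm
  have hR' : IsPGroup p (R.subgroupOf T) := hR.of_equiv (Subgroup.subgroupOfEquivOfLe hRT).symm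
  have h := normal_pSubgroup_le_of_weight (Q := Q.subgroupOf T)
    (N := Q.subgroupOf T ⊔ R.subgroupOf T) (IsPGroup.to_sup_of_normal_left hQ' hR') le_sup_left χ
    hker (by rwa [Nat.card_congr (Subgroup.subgroupOfEquivOfLe hQT).toEquiv])
  exact fun r hr => h (Subgroup.mem_sup_right (show (⟨r, hRT hr⟩ : T) ∈ R.subgroupOf T from hr))

end Subpair

end Cfsg.Agent.BrauerPairs
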